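import Mathlib

set_option autoImplicit false

namespace Cfsg.Agent.Lib.Helper5.SpTwo

/-- Burnside's lemma for an invariant subset: the order of the group divides the total number
of fixed points. -/
theorem burn_dvd {E Ω : Type*} [Group E] [Fintype E] [Finite Ω] (σ : E →* Equiv.Perm Ω)
    (S : Set Ω) (hS : ∀ e, ∀ ω ∈ S, σ e ω ∈ S) :
    Nat.card E ∣ ∑ e : E, Nat.card {ω // ω ∈ S ∧ σ e ω = ω} := by
  classical
  have : Fintype Ω := Fintype.ofFinite Ω
  let _ : MulAction E ↥S :=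
    { smul := fun e ω => ⟨σ e ω, hS e ω ω.2⟩
      one_smul := fun ω => Subtype.ext (by show σ 1 ω = ω; rw [map_one]; rfl)
      mul_smul := fun e e' ω => Subtype.ext (by
        show σ (e * e') ω = σ e (σ e' ω)
        rw [map_mul]; rfl) }
  have h := MulAction.sum_card_fixedBy_eq_card_orbits_mul_card_group E ↥S
  have e : ∀ x : E, Nat.card {ω : Ω // ω ∈ S ∧ σ x ω = ω}
      = Fintype.card (MulAction.fixedBy ↥S x) := by
    intro x
    rw [← Nat.card_eq_fintype_card]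
    refine Nat.card_congr ⟨fun ω => ⟨⟨ω.1, ω.2.1⟩, Subtype.ext ω.2.2⟩,
      fun ω => ⟨ω.1.1, ω.1.2, congrArg Subtype.val ω.2⟩, fun ω => rfl, fun ω => rfl⟩
  simp_rw [e]
  rw [h, Nat.card_eq_fintype_card]
  exact Dvd.intro_left _ rfl

theorem burn_card_of_fix {E Ω : Type*} [Group E] (σ : E →* Equiv.Perm Ω) (S : Set Ω) (e : E)
    (h : ∀ ω ∈ S, σ e ω = ω) : Nat.card {ω // ω ∈ S ∧ σ e ω = ω} = Nat.card S :=
  Nat.card_congr (Equiv.subtypeEquivRight (fun ω => ⟨fun hω => hω.1, fun hω => ⟨hω, h ω hω⟩⟩))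

theorem abs1 {E Ω : Type*} [Group E] [Finite E] [Finite Ω] (σ : E →* Equiv.Perm Ω) (S : Set Ω)
    (hS : ∀ e, ∀ ω ∈ S, σ e ω ∈ S) (z : E) (hz : z ≠ 1) (hzS : ∀ ω ∈ S, σ z ω = ω) (φ : ℕ)
    (hφ : ∀ e, e ≠ 1 → e ≠ z → Nat.card {ω // ω ∈ S ∧ σ e ω = ω} = φ)
    (hne : ∃ e, ∃ ω ∈ S, σ e ω ≠ ω) : Nat.card E ≤ 2 * Nat.card S := by
  classical
  have : Fintype E := Fintype.ofFinite E
  have hdvd := burn_dvd σ S hS
  have h1 : Nat.card {ω // ω ∈ S ∧ σ 1 ω = ω} = Nat.card S :=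
    burn_card_of_fix σ S 1 (fun ω _ => by rw [map_one]; rfl)
  have h2 : Nat.card {ω // ω ∈ S ∧ σ z ω = ω} = Nat.card S := burn_card_of_fix σ S z hzS
  have hsum : ∑ e : E, Nat.card {ω // ω ∈ S ∧ σ e ω = ω}
      = Nat.card S + (Nat.card S + (Nat.card E - 2) * φ) := by
    rw [← Finset.add_sum_erase _ _ (Finset.mem_univ (1 : E)), h1]
    congr 1
    rw [← Finset.add_sum_erase _ _ (Finset.mem_erase.2 ⟨hz, Finset.mem_univ z⟩), h2]
    congr 1
    rw [Finset.sum_congr rfl (fun x hx => hφ x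
      (Finset.ne_of_mem_erase (Finset.mem_of_mem_erase hx)) (Finset.ne_of_mem_erase hx)),
      Finset.sum_const, Finset.card_erase_of_mem (Finset.mem_erase.2 ⟨hz, Finset.mem_univ z⟩),
      Finset.card_erase_of_mem (Finset.mem_univ _), Finset.card_univ, Nat.card_eq_fintype_card,
      smul_eq_mul]
    rfl
  rw [hsum] at hdvd
  -- `φ < |S|`
  obtain ⟨e, ω, hωS, hω⟩ := hne
  have he1 : e ≠ 1 := by
    rintro rfl
    exact hω (by rw [map_one]; rfl)
  have hez : e ≠ z := by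
    rintro rfl
    exact hω (hzS ω hωS)
  have hlt : φ < Nat.card S := by
    rw [← hφ e he1 hez]
    have hfin : Finite ↥S := inferInstance
    have hsub : {η | η ∈ S ∧ σ e η = η} ⊂ S := by
      refine ⟨fun η hη => hη.1, fun hcon => hω (hcon hωS).2⟩
    exact Set.ncard_lt_ncard hsub (Set.toFinite S)
  have hE2 : 2 ≤ Nat.card E := by
    have : Nontrivial E := ⟨⟨z, 1, hz⟩⟩
    exact Finite.one_lt_card
  obtain ⟨d, hd⟩ := Nat.exists_eq_add_of_lt hlt
  obtain ⟨m, hm⟩ := Nat.exists_eq_add_of_le hE2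
  have hrew : Nat.card S + (Nat.card S + (Nat.card E - 2) * φ)
      = 2 * (d + 1) + Nat.card E * φ := by
    rw [hd, hm]
    have : 2 + m - 2 = m := by omega
    rw [this]
    ring
  rw [hrew] at hdvd
  have h3 : Nat.card E ∣ 2 * (d + 1) := (Nat.dvd_add_left (Dvd.intro _ rfl)).1 hdvd
  have h4 := Nat.le_of_dvd (by omega) h3
  omega

/-- a fixed-point-free involution forces an even number of points -/
theorem burn_even {Ω : Type*} [DecidableEq Ω] (s : Finset Ω) (g : Ω → Ω) (hmem : ∀ a ∈ s, g a ∈ s)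
    (hne : ∀ a ∈ s, g a ≠ a) (hinv : ∀ a ∈ s, g (g a) = a) : Even s.card := by
  have h := Finset.sum_involution (s := s) (f := fun _ => (1 : ZMod 2)) (fun a _ => g a)
    (fun _ _ => by decide) (fun a ha _ => hne a ha) hmem hinv
  rw [Finset.sum_const, nsmul_eq_mul, mul_one] at h
  exact ZMod.natCast_eq_zero_iff_even.1 h

theorem abs2 {E Ω : Type*} [Group E] [Finite E] [Finite Ω] (σ : E →* Equiv.Perm Ω) (S : Set Ω)
    (hS : ∀ e, ∀ ω ∈ S, σ e ω ∈ S) (z : E) (hz : z ≠ 1) (hz2 : z * z = 1) (hzc : ∀ e, e * z = z * e)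
    (hzS : ∀ ω ∈ S, σ z ω ≠ ω) (τ : ℕ)
    (hτ : ∀ e, e ≠ 1 → e ≠ z →
      Nat.card {ω // ω ∈ S ∧ σ e ω = ω} + Nat.card {ω // ω ∈ S ∧ σ (e * z) ω = ω} = τ)
    (hne : ∃ e, ∃ ω ∈ S, σ e ω ≠ ω ∧ σ (e * z) ω ≠ ω) : Nat.card E ≤ Nat.card S := by
  classical
  have : Fintype E := Fintype.ofFinite E
  have : Fintype Ω := Fintype.ofFinite Ω
  have hdvd := burn_dvd σ S hS
  set a : E → ℕ := fun e => Nat.card {ω // ω ∈ S ∧ σ e ω = ω} with ha
  have hafin : ∀ e, a e = (Finset.univ.filter (fun ω => ω ∈ S ∧ σ e ω = ω)).card := fun e =>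
    Nat.subtype_card _ (by simp)
  have h1 : a 1 = Nat.card S := burn_card_of_fix σ S 1 (fun ω _ => by rw [map_one]; rfl)
  have h2 : a z = 0 := by
    rw [hafin, Finset.card_eq_zero, Finset.filter_eq_empty_iff]
    intro ω _ hω
    exact hzS ω hω.1 hω.2
  have hσzz : ∀ ω, σ z (σ z ω) = ω := by
    intro ω
    rw [← Equiv.Perm.mul_apply, ← map_mul, hz2, map_one]; rfl
  have heven : ∀ e, Even (a e) := by
    intro e
    rw [hafin]
    refine burn_even _ (fun ω => σ z ω) ?_ ?_ ?_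
    · intro ω hω
      rw [Finset.mem_filter] at hω ⊢
      refine ⟨Finset.mem_univ _, hS z ω hω.2.1, ?_⟩
      rw [← Equiv.Perm.mul_apply, ← map_mul, hzc, map_mul, Equiv.Perm.mul_apply, hω.2.2]
    · intro ω hω
      rw [Finset.mem_filter] at hω
      exact hzS ω hω.2.1
    · intro ω _
      exact hσzz ω
  -- reindexing
  have hre : ∑ e : E, a (e * z) = ∑ e : E, a e :=
    Fintype.sum_equiv (Equiv.mulRight z) _ _ (fun e => rfl)
  have hsum2 : ∑ e : E, (a e + a (e * z)) = 2 * Nat.card S + (Nat.card E - 2) * τ := by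
    rw [← Finset.add_sum_erase _ _ (Finset.mem_univ (1 : E)), one_mul, h1, h2,
      ← Finset.add_sum_erase _ _ (Finset.mem_erase.2 ⟨hz, Finset.mem_univ z⟩), hz2, h1, h2,
      Finset.sum_congr rfl (fun x hx => hτ x
      (Finset.ne_of_mem_erase (Finset.mem_of_mem_erase hx)) (Finset.ne_of_mem_erase hx)),
      Finset.sum_const, Finset.card_erase_of_mem (Finset.mem_erase.2 ⟨hz, Finset.mem_univ z⟩),
      Finset.card_erase_of_mem (Finset.mem_univ _), Finset.card_univ,
      ← Nat.card_eq_fintype_card (α := E), smul_eq_mul]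
    have : Nat.card E - 1 - 1 = Nat.card E - 2 := rfl
    rw [this]
    ring
  rw [Finset.sum_add_distrib, hre, ← two_mul] at hsum2
  obtain ⟨e, ω, hωS, hω1, hω2⟩ := hne
  have he1 : e ≠ 1 := by
    rintro rfl
    exact hω1 (by rw [map_one]; rfl)
  have hez : e ≠ z := by
    rintro rfl
    exact hω2 (by rw [hz2, map_one]; rfl)
  have hτe := hτ e he1 hez
  have hτeven : Even τ := by
    rw [← hτe]
    exact (heven e).add (heven (e * z))
  have hlt : τ < Nat.card S := by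
    rw [← hτe]
    show a e + a (e * z) < Nat.card S
    rw [hafin, hafin, ← Finset.card_union_of_disjoint]
    · have hScard : Nat.card S = (Finset.univ.filter (fun ω => ω ∈ S)).card :=
        Nat.subtype_card _ (by simp)
      rw [hScard]
      apply Finset.card_lt_card
      refine ⟨?_, ?_⟩
      · intro η hη
        rcases Finset.mem_union.1 hη with h | h
        · exact Finset.mem_filter.2 ⟨Finset.mem_univ _, (Finset.mem_filter.1 h).2.1⟩
        · exact Finset.mem_filter.2 ⟨Finset.mem_univ _, (Finset.mem_filter.1 h).2.1⟩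
      · intro hcon
        have := hcon (Finset.mem_filter.2 ⟨Finset.mem_univ ω, hωS⟩)
        rcases Finset.mem_union.1 this with h | h
        · exact hω1 (Finset.mem_filter.1 h).2.2
        · exact hω2 (Finset.mem_filter.1 h).2.2
    · rw [Finset.disjoint_left]
      intro η h h'
      have h3 := (Finset.mem_filter.1 h).2
      have h4 := (Finset.mem_filter.1 h').2.2
      rw [map_mul, Equiv.Perm.mul_apply] at h4
      have h5 : σ z η = η := (σ e).injective (h4.trans h3.2.symm)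
      exact hzS η h3.1 h5
  have hE2 : 2 ≤ Nat.card E := by
    have : Nontrivial E := ⟨⟨z, 1, hz⟩⟩
    exact Finite.one_lt_card
  obtain ⟨t, ht⟩ := hτeven
  obtain ⟨d, hd⟩ := Nat.exists_eq_add_of_lt hlt
  obtain ⟨m, hm⟩ := Nat.exists_eq_add_of_le hE2
  obtain ⟨r, hr⟩ := hdvd
  rw [hr] at hsum2
  -- `|E| * r = (d + 1) + |E| * t`
  have hkey : Nat.card E * r = (d + 1) + Nat.card E * t := by
    have h6 : 2 * (Nat.card E * r) = 2 * ((d + 1) + Nat.card E * t) := by
      rw [hsum2, hd, ht, hm]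
      have : 2 + m - 2 = m := by omega
      rw [this]
      ring
    omega
  have h7 : Nat.card E ∣ d + 1 :=
    (Nat.dvd_add_left (Dvd.intro _ rfl)).1 (hkey ▸ Dvd.intro _ rfl)
  have h8 := Nat.le_of_dvd (by omega) h7
  omega

end Cfsg.Agent.Lib.Helper5.SpTwo
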