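import Cfsg.Agent.Lib.Helper5.SpTwo.QF

set_option autoImplicit false

namespace Cfsg.Agent.Lib.Helper5.SpTwo

variable {F : Type*} [Field F] [Fintype F] {m : ℕ} {Ω : Type*}

theorem rho_t_t (hF : Fintype.card F = 2) (ρ : GG m F →* Equiv.Perm Ω) (x : VV m F) (ω : Ω) :
    ρ (t x) (ρ (t x) ω) = ω := by
  rw [← Equiv.Perm.mul_apply, ← map_mul, t_sq hF, map_one, Equiv.Perm.one_apply]

theorem rho_t_comm (hF : Fintype.card F = 2) (ρ : GG m F →* Equiv.Perm Ω) {x y : VV m F} (h : bb x y = 0)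
    (ω : Ω) : ρ (t x) (ρ (t y) ω) = ρ (t y) (ρ (t x) ω) := by
  rw [← Equiv.Perm.mul_apply, ← map_mul, t_comm hF h, map_mul, Equiv.Perm.mul_apply]

theorem rho_ep_one (hF : Fintype.card F = 2) (ρ : GG m F →* Equiv.Perm Ω) (v w : VV m F) (ω : Ω) :
    ρ (ep v w 1) ω = ρ (t w) (ρ (t (w + v)) ω) := by
  rw [ep_one hF, map_mul, Equiv.Perm.mul_apply]

theorem rho_ep_zero (hF : Fintype.card F = 2) (ρ : GG m F →* Equiv.Perm Ω) (v w : VV m F) (ω : Ω) :
    ρ (ep v w 0) ω = ρ (t v) (ρ (t w) (ρ (t (w + v)) ω)) := by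
  rw [ep_zero hF, map_mul, map_mul, Equiv.Perm.mul_apply, Equiv.Perm.mul_apply]

/-- RUNG C0A. -/
theorem fix_shift (hF : Fintype.card F = 2) (ρ : GG m F →* Equiv.Perm Ω) (hT : ∀ ω v, Tight ρ ω v)
    {v w : VV m F} {ω : Ω} (hv : ρ (t v) ω = ω) (hw : bb w v = 0) :
    ρ (t (w + v)) ω = ρ (t w) ω := by
  have h1 : ρ (t w) (ρ (t (w + v)) ω) = ω := by
    rcases hT ω v w hw with h | h
    · rw [rho_ep_zero hF] at h
      have := congrArg (ρ (t v)) h
      rwa [rho_t_t hF, hv] at this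
    · rwa [rho_ep_one hF] at h
  have := congrArg (ρ (t w)) h1
  rwa [rho_t_t hF] at this

theorem fix_add (hF : Fintype.card F = 2) (ρ : GG m F →* Equiv.Perm Ω) (hT : ∀ ω v, Tight ρ ω v)
    {x y : VV m F} {ω : Ω} (hx : ρ (t x) ω = ω) (hy : ρ (t y) ω = ω) : ρ (t (x + y)) ω = ω := by
  rcases f01 hF (bb x y) with h | h
  · rw [fix_shift hF ρ hT hy h, hx]
  · rw [← t_braid hF h, map_mul, map_mul, Equiv.Perm.mul_apply, Equiv.Perm.mul_apply, hy, hx, hy]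

theorem qf_one (hF : Fintype.card F = 2) (ρ : GG m F →* Equiv.Perm Ω) (hT : ∀ ω v, Tight ρ ω v)
    {v w : VV m F} {ω : Ω} (h : ρ (t v) ω ≠ ω) (hw : bb w v = 0) (hq : qf ρ ω v w = 1) :
    ρ (t w) ω = ρ (t v) ω := by
  have hvw : bb v w = 0 := by rw [bb_comm hF, hw]
  have h1 := qf_spec ρ (hT ω v) hw
  rw [hq, rho_ep_one hF] at h1
  have h2 : ρ (t (w + v)) ω = ρ (t w) ω := by
    have := congrArg (ρ (t w)) h1
    rwa [rho_t_t hF] at this
  have h3 : ρ (t w) ω ≠ ω := by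
    intro h3
    have := fix_shift hF ρ hT h3 hvw
    rw [add_comm, h2, h3] at this
    exact h this.symm
  rcases hT ω w v hvw with h4 | h4
  · exfalso
    rw [rho_ep_zero hF, add_comm, h2, rho_t_comm hF ρ hvw, rho_t_t hF] at h4
    exact h h4
  · rw [rho_ep_one hF, add_comm, h2] at h4
    have := congrArg (ρ (t v)) h4
    rwa [rho_t_t hF] at this

end Cfsg.Agent.Lib.Helper5.SpTwo
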