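import Cfsg.Agent.Lib.Helper5.SpTwo.GEO1

set_option autoImplicit false
set_option linter.unusedSectionVars false
set_option linter.unusedVariables false

namespace Cfsg.Agent.Lib.Helper5.SpTwo

variable {F : Type*} [Field F] [Fintype F] {m : ℕ}

/-- the functional `bb · v` -/
def geo2Phi (v : VV m F) : VV m F →ₗ[F] F where
  toFun := fun x => bb x v
  map_add' := fun x y => bb_add_left x y v
  map_smul' := fun a x => bb_smul_left a x v

theorem geo2_finrank : Module.finrank F (VV m F) = 2 * m := by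
  rw [Module.finrank_fintype_fun_eq_card, Fintype.card_sum, Fintype.card_fin]; ring

/-- RUNG GEO2. `|v^⊥| = 2^(2m-1)`. -/
theorem card_perp (hF : Fintype.card F = 2) {v : VV m F} (hv : v ≠ 0) :
    Nat.card (perp v) = 2 ^ (2 * m - 1) := by
  have hker : perp v = LinearMap.ker (geo2Phi v) := by
    ext x; rfl
  have hsurj : LinearMap.range (geo2Phi v) = ⊤ := by
    rw [LinearMap.range_eq_top]
    intro α
    obtain ⟨y, hy⟩ := geo1_step1 hF hv
    refine ⟨α • y, ?_⟩
    change bb (α • y) v = α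
    rw [bb_smul_left, hy, mul_one]
  have h1 := LinearMap.finrank_range_add_finrank_ker (geo2Phi v)
  rw [hsurj, finrank_top, Module.finrank_self, geo2_finrank, ← hker] at h1
  rw [Module.natCard_eq_pow_finrank (K := F), Nat.card_eq_fintype_card, hF]
  congr 1
  omega

/-- `(v^⊥)^⊥ = {0, v}` (from `exists_vals2`). -/
theorem rad_perp (hF : Fintype.card F = 2) {v z : VV m F} (hv : v ≠ 0)
    (h : ∀ x, bb x v = 0 → bb x z = 0) : z = 0 ∨ z = v := by
  by_contra hcon
  push Not at hcon
  obtain ⟨x, hx1, hx2⟩ := exists_vals2 hF hv hcon.1 (Ne.symm hcon.2) 0 1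
  rw [h x hx1] at hx2
  exact zero_ne_one hx2

/-- `{x | bb x v = 0 ∧ bb x r = 0}` has at least `2^(2m-2) ≥ 16 > 4` elements. -/
theorem exists_perp2 (hF : Fintype.card F = 2) (hm : 3 ≤ m) (v r : VV m F) :
    ∃ x, bb x v = 0 ∧ bb x r = 0 ∧ x ≠ 0 ∧ x ≠ v ∧ x ≠ r ∧ x ≠ v + r := by
  classical
  obtain ⟨φ, hφ⟩ : ∃ φ : VV m F →ₗ[F] F × F, φ = (geo2Phi v).prod (geo2Phi r) := ⟨_, rfl⟩
  have hmem : ∀ x, x ∈ LinearMap.ker φ ↔ bb x v = 0 ∧ bb x r = 0 := by
    intro x
    rw [LinearMap.mem_ker, hφ]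
    change (bb x v, bb x r) = 0 ↔ _
    rw [Prod.mk_eq_zero]
  have h1 := LinearMap.finrank_range_add_finrank_ker φ
  have h2 : Module.finrank F (LinearMap.range φ) ≤ 2 := by
    have := Submodule.finrank_le (LinearMap.range φ)
    rwa [Module.finrank_prod, Module.finrank_self] at this
  rw [geo2_finrank] at h1
  have h3 : 4 ≤ Module.finrank F (LinearMap.ker φ) := by omega
  have h4 : 16 ≤ Nat.card (LinearMap.ker φ) := by
    rw [Module.natCard_eq_pow_finrank (K := F), Nat.card_eq_fintype_card, hF]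
    calc 16 = 2 ^ 4 := by norm_num
      _ ≤ 2 ^ Module.finrank F (LinearMap.ker φ) := Nat.pow_le_pow_right (by norm_num) h3
  by_contra hcon
  push Not at hcon
  have hsub : ((LinearMap.ker φ : Submodule F (VV m F)) : Set (VV m F))
      ⊆ (({0, v, r, v + r} : Finset (VV m F)) : Set (VV m F)) := by
    intro x hx
    have hx' := (hmem x).1 hx
    simp only [Finset.coe_insert, Finset.coe_singleton, Set.mem_insert_iff, Set.mem_singleton_iff]
    by_contra hne
    push Not at hne
    exact hne.2.2.2 (hcon x hx'.1 hx'.2 hne.1 hne.2.1 hne.2.2.1)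
  have h5 : Nat.card (LinearMap.ker φ) ≤ 4 := by
    have e1 : Nat.card (LinearMap.ker φ)
        = ((LinearMap.ker φ : Submodule F (VV m F)) : Set (VV m F)).ncard := by
      rw [← Nat.card_coe_set_eq]; rfl
    rw [e1]
    calc _ ≤ (({0, v, r, v + r} : Finset (VV m F)) : Set (VV m F)).ncard :=
          Set.ncard_le_ncard hsub (Finset.finite_toSet _)
      _ = ({0, v, r, v + r} : Finset (VV m F)).card := Set.ncard_coe_finset _
      _ ≤ 4 := Finset.card_le_four
  omega

end Cfsg.Agent.Lib.Helper5.SpTwo
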