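import Cfsg.Agent.Lib.Helper5.SpTwo.C0A
import Cfsg.Agent.Lib.Helper5.SpTwo.GEO2

set_option autoImplicit false

namespace Cfsg.Agent.Lib.Helper5.SpTwo

variable {F : Type*} [Field F] [Fintype F] {m : ℕ} {Ω : Type*}

theorem c0b_exists_w (hF : Fintype.card F = 2) (hm : 3 ≤ m) (ρ : GG m F →* Equiv.Perm Ω)
    (hT : ∀ ω v, Tight ρ ω v) {v r : VV m F} {ω : Ω} (h : ρ (t v) ω ≠ ω) (hv0 : v ≠ 0)
    (hr0 : r ≠ 0) (hrv : r ≠ v) :
    ∃ w, bb w v = 0 ∧ bb w r = 0 ∧ qf ρ ω v w = 1 := by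
  obtain ⟨x, hxv, hxr, hx0, hx1, hx2, hx3⟩ := exists_perp2 hF hm v r
  obtain ⟨y, hyv, hyr, hyx⟩ := exists_vals3 hF hv0 hr0 (Ne.symm hrv) hx0 hx1 hx2 hx3 0 0 1
  have hadd := qf_add hF ρ h (hT ω v) hxv hyv
  rw [bb_comm hF x y, hyx] at hadd
  rcases f01 hF (qf ρ ω v x) with h1 | h1
  · rcases f01 hF (qf ρ ω v y) with h2 | h2
    · refine ⟨x + y, ?_, ?_, ?_⟩
      · rw [bb_add_left, hxv, hyv, add_zero]
      · rw [bb_add_left, hxr, hyr, add_zero]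
      · rw [hadd, h1, h2, add_zero, zero_add]
    · exact ⟨y, hyv, hyr, h2⟩
  · exact ⟨x, hxv, hxr, h1⟩

theorem c0b_key (hF : Fintype.card F = 2) (ρ : GG m F →* Equiv.Perm Ω)
    (hT : ∀ ω v, Tight ρ ω v) {v w s : VV m F} {ω : Ω} (h : ρ (t v) ω ≠ ω)
    (hwv : bb w v = 0) (hw1 : qf ρ ω v w = 1) (hsv : bb s v = 0) (hws : bb w s = 0)
    (hs : qf ρ ω v s = 0) : ρ (t s) ω = ω ∨ ρ (t s) ω = ρ (t v) ω := by
  by_cases hfix : ρ (t s) ω = ω
  · exact Or.inl hfix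
  · right
    have h1 : qf ρ ω v (w + s) = 1 := by
      rw [qf_add hF ρ h (hT ω v) hwv hsv, hw1, hs, hws, add_zero, add_zero]
    have h2 := qf_one hF ρ hT h hwv hw1
    have h3 := qf_one hF ρ hT h (by rw [bb_add_left, hwv, hsv, add_zero]) h1
    have h4 : ρ (ep s w 1) ω = ω := by
      rw [rho_ep_one hF, h3, ← h2, rho_t_t hF]
    have h5 := qf_unique hF ρ hfix hws h4
    have h6 := qf_one hF ρ hT hfix hws h5.symm
    rw [← h6, h2]

/-- RUNG C0B. -/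
theorem qf_zero_dich (hF : Fintype.card F = 2) (hm : 3 ≤ m) (ρ : GG m F →* Equiv.Perm Ω)
    (hT : ∀ ω v, Tight ρ ω v) {v r : VV m F} {ω : Ω} (h : ρ (t v) ω ≠ ω) (hr : bb r v = 0)
    (hq : qf ρ ω v r = 0) :
    (ρ (t r) ω = ω ∧ ρ (t (r + v)) ω ≠ ω) ∨ (ρ (t r) ω ≠ ω ∧ ρ (t (r + v)) ω = ω) := by
  have hv0 : v ≠ 0 := by
    rintro rfl
    apply h
    rw [t_zero, map_one, Equiv.Perm.one_apply]
  by_cases hr0 : r = 0
  · subst hr0
    left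
    rw [zero_add, t_zero, map_one, Equiv.Perm.one_apply]
    exact ⟨rfl, h⟩
  by_cases hrv : r = v
  · subst hrv
    right
    rw [vadd hF, t_zero, map_one, Equiv.Perm.one_apply]
    exact ⟨h, rfl⟩
  obtain ⟨w, hwv, hwr, hw1⟩ := c0b_exists_w hF hm ρ hT h hv0 hr0 hrv
  have k1 := c0b_key hF ρ hT h hwv hw1 hr hwr hq
  have hq' : qf ρ ω v (r + v) = 0 := by
    rw [qf_add hF ρ h (hT ω v) hr (bb_self v), hq, qf_v hF, hr, add_zero, add_zero]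
  have k2 := c0b_key hF ρ hT h hwv hw1 (s := r + v) (by rw [bb_add_left, hr, bb_self, add_zero])
    (by rw [bb_add_right, hwr, hwv, add_zero]) hq'
  have h1 := qf_spec ρ (hT ω v) hr
  rw [hq, rho_ep_zero hF] at h1
  have h2 : ρ (t r) (ρ (t (r + v)) ω) = ρ (t v) ω := by
    have := congrArg (ρ (t v)) h1
    rwa [rho_t_t hF] at this
  rcases k2 with k2 | k2
  · right
    rw [k2] at h2
    exact ⟨by rw [h2]; exact h, k2⟩
  · left
    rw [k2] at h2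
    refine ⟨?_, by rw [k2]; exact h⟩
    rcases k1 with k1 | k1
    · exact k1
    · exfalso
      apply h
      rw [← k1, rho_t_t hF] at h2
      rw [← k1, ← h2]

end Cfsg.Agent.Lib.Helper5.SpTwo
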