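import Mathlib

set_option autoImplicit false

namespace Cfsg.Agent.Lib.Helper5.SpTwo

/-- RUNG GS (Gauss sum of a quadratic form over F_2). -/
theorem gs {F U : Type*} [Field F] [Fintype F] (hF : Fintype.card F = 2) [AddCommGroup U] [Finite U]
    (β : U → U → F) (hβ : ∀ x y z, β (x + y) z = β x z + β y z)
    (Q : U → F) (hQ : ∀ x y, Q (x + y) = Q x + Q y + β x y)
    (hQr : ∀ z, (∀ x, β x z = 0) → Q z = 0) :
    (2 * (Nat.card {x : U // Q x = 0} : ℤ) - Nat.card U) ^ 2
      = Nat.card {z : U // ∀ x, β x z = 0} * Nat.card U := by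
  classical
  haveI := Fintype.ofFinite U
  have f01 : ∀ a : F, a = 0 ∨ a = 1 := by
    intro a
    by_contra h
    push Not at h
    have : ({0, 1, a} : Finset F).card ≤ Fintype.card F := Finset.card_le_univ _
    rw [Finset.card_insert_of_notMem (by simp [h.1.symm]), Finset.card_insert_of_notMem (by simp [h.2.symm]),
      Finset.card_singleton, hF] at this
    omega
  have h11 : (1 : F) + 1 = 0 := by
    rcases f01 ((1 : F) + 1) with h | h
    · exact h
    · exact absurd (by simpa using h) (one_ne_zero (α := F))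
  have fadd : ∀ a : F, a + a = 0 := fun a => by
    calc a + a = a * (1 + 1) := by ring
      _ = 0 := by rw [h11, mul_zero]
  set χ : F → ℤ := fun a => if a = 0 then 1 else -1 with hχ
  have χadd : ∀ a b, χ (a + b) = χ a * χ b := by
    intro a b
    rcases f01 a with rfl | rfl <;> rcases f01 b with rfl | rfl <;> simp [hχ, h11]
  have χ0 : χ 0 = 1 := by simp [hχ]
  -- S
  have hS : ∑ x : U, χ (Q x) = 2 * (Nat.card {x : U // Q x = 0} : ℤ) - Nat.card U := by
    have e1 : ∀ x : U, χ (Q x) = 2 * (if Q x = 0 then 1 else 0) - 1 := by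
      intro x
      by_cases h : Q x = 0 <;> simp [hχ, h]
    simp_rw [e1]
    rw [Finset.sum_sub_distrib, ← Finset.mul_sum, Finset.sum_boole, Finset.sum_const, Nat.card_eq_fintype_card,
      Nat.card_eq_fintype_card, Fintype.card_subtype, Finset.card_univ]
    simp
  -- inner sums
  have hin : ∀ z : U, ∑ x : U, χ (β x z) = if ∀ x, β x z = 0 then (Fintype.card U : ℤ) else 0 := by
    intro z
    split_ifs with h
    · simp [h, χ0]
    · push Not at h
      obtain ⟨x₀, hx₀⟩ := h
      have hx1 : β x₀ z = 1 := (f01 _).resolve_left hx₀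
      have e : ∑ x : U, χ (β x z) = ∑ x : U, χ (β (x + x₀) z) :=
        (Equiv.sum_comp (Equiv.addRight x₀) (fun x => χ (β x z))).symm
      have e2 : ∑ x : U, χ (β (x + x₀) z) = - ∑ x : U, χ (β x z) := by
        rw [← Finset.sum_neg_distrib]
        refine Finset.sum_congr rfl (fun x _ => ?_)
        rw [hβ, χadd, hx1]
        simp [hχ]
      omega
  rw [← hS, sq, Finset.sum_mul_sum]
  have step : ∀ x : U, ∑ y : U, χ (Q x) * χ (Q y) = ∑ z : U, χ (Q z) * χ (β x z) := by
    intro x
    rw [← Equiv.sum_comp (Equiv.addLeft x) (fun y => χ (Q x) * χ (Q y))]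
    refine Finset.sum_congr rfl (fun z _ => ?_)
    simp only [Equiv.coe_addLeft]
    rw [← χadd, ← χadd, hQ]
    congr 1
    calc Q x + (Q x + Q z + β x z) = (Q x + Q x) + (Q z + β x z) := by ring
      _ = Q z + β x z := by rw [fadd, zero_add]
  simp_rw [step]
  rw [Finset.sum_comm]
  simp_rw [← Finset.mul_sum, hin]
  rw [Nat.card_eq_fintype_card, Nat.card_eq_fintype_card, Fintype.card_subtype]
  simp only [mul_ite, mul_zero]
  rw [← Finset.sum_filter]
  rw [Finset.sum_congr rfl (g := fun _ => (Fintype.card U : ℤ))]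
  · simp
  · intro z hz
    rw [hQr z (Finset.mem_filter.1 hz).2, χ0, one_mul]

end Cfsg.Agent.Lib.Helper5.SpTwo
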