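import Mathlib

set_option autoImplicit false

namespace Cfsg.Agent.Lib.Helper5.SpTwo

theorem num_aux {a b Z : ℕ} (h : (2 * (Z : ℤ) - 2 * a) ^ 2 = (2 * (b : ℤ)) ^ 2) :
    Z = a + b ∨ Z + b = a := by
  have h1 : ((Z : ℤ) - a - b) * ((Z : ℤ) - a + b) = 0 := by nlinarith
  rcases mul_eq_zero.1 h1 with h2 | h2
  · left; omega
  · right; omega

/-- RUNG NUM (Mathlib only, pure arithmetic). -/
theorem num_zeros {m Z : ℕ} (hm : 1 ≤ m)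
    (h : (2 * (Z : ℤ) - ((2 ^ (2 * m - 1) : ℕ) : ℤ)) ^ 2 = ((2 : ℕ) : ℤ) * ((2 ^ (2 * m - 1) : ℕ) : ℤ)) :
    Z = 2 ^ (2 * m - 2) + 2 ^ (m - 1) ∨ Z + 2 ^ (m - 1) = 2 ^ (2 * m - 2) := by
  obtain ⟨k, rfl⟩ : ∃ k, m = k + 1 := ⟨m - 1, by omega⟩
  have e1 : 2 * (k + 1) - 1 = 2 * k + 1 := by omega
  have e2 : 2 * (k + 1) - 2 = 2 * k := by omega
  have e3 : k + 1 - 1 = k := by omega
  rw [e1] at h
  rw [e2, e3]
  apply num_aux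
  push_cast at h ⊢
  rw [show (2 : ℤ) * 2 ^ (2 * k) = 2 ^ (2 * k + 1) by ring, h]
  ring

theorem num_zeros' {m Z : ℕ} (hm : 1 ≤ m)
    (h : (2 * (Z : ℤ) - ((2 ^ (2 * m) : ℕ) : ℤ)) ^ 2 = ((1 : ℕ) : ℤ) * ((2 ^ (2 * m) : ℕ) : ℤ)) :
    Z = 2 ^ (2 * m - 1) + 2 ^ (m - 1) ∨ Z + 2 ^ (m - 1) = 2 ^ (2 * m - 1) := by
  obtain ⟨k, rfl⟩ : ∃ k, m = k + 1 := ⟨m - 1, by omega⟩
  have e1 : 2 * (k + 1) - 1 = 2 * k + 1 := by omega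
  have e3 : k + 1 - 1 = k := by omega
  rw [e1, e3]
  apply num_aux
  push_cast at h ⊢
  rw [show (2 : ℤ) * 2 ^ (2 * k + 1) = 2 ^ (2 * (k + 1)) by ring, h]
  ring

/-- `2^(m-1) (2^(m-1) ± 1)` is not twice a power of 2 when `m ≥ 3`. -/
theorem num_not_pow {m Z j : ℕ} (hm : 3 ≤ m)
    (h : Z = 2 ^ (2 * m - 2) + 2 ^ (m - 1) ∨ Z + 2 ^ (m - 1) = 2 ^ (2 * m - 2)) : Z ≠ 2 * 2 ^ j := by
  obtain ⟨k, rfl⟩ : ∃ k, m = k + 3 := ⟨m - 3, by omega⟩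
  have e2 : 2 * (k + 3) - 2 = (k + 2) + (k + 2) := by omega
  have e3 : k + 3 - 1 = k + 2 := by omega
  rw [e2, e3, pow_add] at h
  intro hZ
  rw [← pow_succ'] at hZ
  -- Z = 2^(k+2) * odd, odd > 1
  obtain ⟨d, hd, hd1, hZd⟩ : ∃ d, Odd d ∧ 1 < d ∧ Z = 2 ^ (k + 2) * d := by
    have hp : 4 ≤ 2 ^ (k + 2) := by
      calc 4 = 2 ^ 2 := by norm_num
        _ ≤ 2 ^ (k + 2) := Nat.pow_le_pow_right (by norm_num) (by omega)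
    have hev : Even (2 ^ (k + 2)) := (Nat.even_pow.2 ⟨even_two, by omega⟩)
    rcases h with h | h
    · exact ⟨2 ^ (k + 2) + 1, hev.add_one, by omega, by rw [h]; ring⟩
    · refine ⟨2 ^ (k + 2) - 1, Nat.Even.sub_odd (by omega) hev odd_one, by omega, ?_⟩
      have : 2 ^ (k + 2) * (2 ^ (k + 2) - 1) + 2 ^ (k + 2) = 2 ^ (k + 2) * 2 ^ (k + 2) := by
        calc 2 ^ (k + 2) * (2 ^ (k + 2) - 1) + 2 ^ (k + 2) = 2 ^ (k + 2) * (2 ^ (k + 2) - 1 + 1) := by ring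
          _ = _ := by rw [Nat.sub_add_cancel (by omega)]
      omega
  have hdvd : d ∣ 2 ^ (j + 1) := by
    rw [← hZ, hZd]
    exact Dvd.intro_left _ rfl
  obtain ⟨i, _, hi⟩ := (Nat.dvd_prime_pow Nat.prime_two).1 hdvd
  rcases i with _ | i
  · simp at hi; omega
  · rw [hi] at hd
    exact (Nat.not_odd_iff_even.2 (Nat.even_pow.2 ⟨even_two, by omega⟩)) hd

end Cfsg.Agent.Lib.Helper5.SpTwo
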