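import Cfsg.Agent.Lib.Helper5.SpTwo.QF
import Cfsg.Agent.Lib.Helper5.SpTwo.GS
import Cfsg.Agent.Lib.Helper5.SpTwo.NUM
import Cfsg.Agent.Lib.Helper5.SpTwo.GEO2

set_option autoImplicit false

namespace Cfsg.Agent.Lib.Helper5.SpTwo

variable {F : Type*} [Field F] [Fintype F] {m : ℕ} {Ω : Type*}

theorem qz_rad (hF : Fintype.card F = 2) {v : VV m F} (hv : v ≠ 0) :
    Nat.card {z : perp v // ∀ x : perp v, bb x.1 z.1 = 0} = 2 := by
  rw [Nat.card_eq_two_iff]
  refine ⟨⟨0, fun x => bb_zero_right _⟩, ⟨⟨v, bb_self v⟩, fun x => x.2⟩, ?_, ?_⟩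
  · intro h
    apply hv
    have := congrArg (fun z : {z : perp v // ∀ x : perp v, bb x.1 z.1 = 0} => z.1.1) h
    exact this.symm
  · rw [Set.eq_univ_iff_forall]
    intro z
    rcases rad_perp hF hv (z := z.1.1) (fun x hx => z.2 ⟨x, hx⟩) with h | h
    · left
      apply Subtype.ext
      apply Subtype.ext
      exact h
    · right
      apply Subtype.ext
      apply Subtype.ext
      exact h

/-- RUNG QZ. -/
theorem qf_zeros (hF : Fintype.card F = 2) (hm : 1 ≤ m) (ρ : GG m F →* Equiv.Perm Ω) {v : VV m F} {ω : Ω}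
    (hv : v ≠ 0) (h : ρ (t v) ω ≠ ω) (hT : Tight ρ ω v) :
    Nat.card {w : perp v // qf ρ ω v w.1 = 0} = 2 ^ (2 * m - 2) + 2 ^ (m - 1) ∨
    Nat.card {w : perp v // qf ρ ω v w.1 = 0} + 2 ^ (m - 1) = 2 ^ (2 * m - 2) := by
  have key := gs hF (U := ↥(perp v)) (fun x y => bb x.1 y.1)
    (fun x y z => bb_add_left x.1 y.1 z.1) (fun w => qf ρ ω v w.1)
    (fun x y => qf_add hF ρ h hT x.2 y.2)
    (by
      intro z hz
      rcases rad_perp hF hv (z := z.1) (fun x hx => hz ⟨x, hx⟩) with h0 | h0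
      · show qf ρ ω v z.1 = 0
        rw [h0, qf_zero hF]
      · show qf ρ ω v z.1 = 0
        rw [h0, qf_v hF])
  rw [qz_rad hF hv, card_perp hF hv] at key
  exact num_zeros hm key

end Cfsg.Agent.Lib.Helper5.SpTwo
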