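import Cfsg.Agent.Lib.Helper5.SpTwo.C0B
import Cfsg.Agent.Lib.Helper5.SpTwo.QZ

set_option autoImplicit false

namespace Cfsg.Agent.Lib.Helper5.SpTwo

variable {F : Type*} [Field F] [Fintype F] {m : ℕ} {Ω : Type*}

/-- the subgroup of `v^⊥` of the vectors whose transvection fixes `ω` -/
def c0cU (hF : Fintype.card F = 2) (ρ : GG m F →* Equiv.Perm Ω) (hT : ∀ ω v, Tight ρ ω v)
    (v : VV m F) (ω : Ω) : AddSubgroup ↥(perp v) where
  carrier := {u | ρ (t u.1) ω = ω}
  add_mem' := by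
    intro a b ha hb
    exact fix_add hF ρ hT ha hb
  zero_mem' := by
    show ρ (t (0 : VV m F)) ω = ω
    rw [t_zero, map_one, Equiv.Perm.one_apply]
  neg_mem' := by
    intro a ha
    show ρ (t (-a.1)) ω = ω
    rw [vneg hF]
    exact ha

theorem c0c_qf (hF : Fintype.card F = 2) (ρ : GG m F →* Equiv.Perm Ω) (hT : ∀ ω v, Tight ρ ω v)
    {v u : VV m F} {ω : Ω} (h : ρ (t v) ω ≠ ω) (hu : bb u v = 0) (hfix : ρ (t u) ω = ω) :
    qf ρ ω v u = 0 := by
  rcases f01 hF (qf ρ ω v u) with h1 | h1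
  · exact h1
  · exfalso
    apply h
    rw [← qf_one hF ρ hT h hu h1, hfix]

/-- RUNG C0C. -/
theorem tight_false (hF : Fintype.card F = 2) (hm : 3 ≤ m) (ρ : GG m F →* Equiv.Perm Ω)
    (hT : ∀ ω v, Tight ρ ω v) {v : VV m F} {ω : Ω} (h : ρ (t v) ω ≠ ω) : False := by
  have hv : v ≠ 0 := by
    rintro rfl
    apply h
    rw [t_zero, map_one, Equiv.Perm.one_apply]
  set U := c0cU hF ρ hT v ω with hU
  have hdvd : Nat.card U ∣ Nat.card ↥(perp v) := AddSubgroup.card_addSubgroup_dvd_card U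
  rw [card_perp hF hv] at hdvd
  obtain ⟨j, -, hj⟩ := (Nat.dvd_prime_pow Nat.prime_two).1 hdvd
  have hqv : ∀ u : VV m F, bb u v = 0 → qf ρ ω v u = 0 → qf ρ ω v (u + v) = 0 := by
    intro u hu hq
    rw [qf_add hF ρ h (hT ω v) hu (bb_self v), hq, qf_v hF, hu, add_zero, add_zero]
  let vv : ↥(perp v) := ⟨v, bb_self v⟩
  let f : U ⊕ U → {w : perp v // qf ρ ω v w.1 = 0} := fun x =>
    match x with
    | Sum.inl u => ⟨u.1, c0c_qf hF ρ hT h u.1.2 u.2⟩
    | Sum.inr u => ⟨u.1 + vv, hqv u.1.1 u.1.2 (c0c_qf hF ρ hT h u.1.2 u.2)⟩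
  have hcross : ∀ a b : U, a.1 ≠ b.1 + vv := by
    intro a b hab
    apply h
    have h1 : ρ (t (b.1.1 + a.1.1)) ω = ω := fix_add hF ρ hT b.2 a.2
    have h2 : a.1.1 = b.1.1 + v := congrArg Subtype.val hab
    rw [h2, vcl hF] at h1
    exact h1
  have hbij : Function.Bijective f := by
    constructor
    · rintro (a | a) (b | b) hab
      · have : (f (Sum.inl a)).1 = (f (Sum.inl b)).1 := congrArg Subtype.val hab
        have this' : a.1 = b.1 := this
        rw [Subtype.ext this']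
      · exact absurd (congrArg Subtype.val hab) (hcross a b)
      · exact absurd (congrArg Subtype.val hab).symm (hcross b a)
      · have : (f (Sum.inr a)).1 = (f (Sum.inr b)).1 := congrArg Subtype.val hab
        have this' : a.1 + vv = b.1 + vv := this
        rw [Subtype.ext (add_right_cancel this')]
    · intro w
      rcases qf_zero_dich hF hm ρ hT h w.1.2 w.2 with ⟨h1, -⟩ | ⟨-, h1⟩
      · exact ⟨Sum.inl ⟨w.1, h1⟩, rfl⟩
      · refine ⟨Sum.inr ⟨w.1 + vv, h1⟩, ?_⟩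
        apply Subtype.ext
        apply Subtype.ext
        show w.1.1 + v + v = w.1.1
        exact vadd_cancel hF _ _
  have hcard : Nat.card {w : perp v // qf ρ ω v w.1 = 0} = 2 * 2 ^ j := by
    rw [← Nat.card_congr (Equiv.ofBijective f hbij), Nat.card_sum, hj]
    ring
  exact num_not_pow hm (qf_zeros hF (by omega) ρ hv h (hT ω v)) hcard

end Cfsg.Agent.Lib.Helper5.SpTwo
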