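import Cfsg.Agent.Lib.Helper5.SpTwo.GEO1

set_option autoImplicit false
set_option linter.unusedSectionVars false
set_option linter.unusedVariables false

namespace Cfsg.Agent.Lib.Helper5.SpTwo

variable {F : Type*} [Field F] [Fintype F] {m : ℕ}

/-- if `bb v v' = 1` then `t (v + v')` maps `v` to `v'` -/
theorem tr_step (hF : Fintype.card F = 2) {v v' : VV m F} (h : bb v v' = 1) :
    act (t (v + v')) v = v' := by
  rw [act_t, bb_add_right, bb_self, zero_add, h, one_smul, vcl hF]

/-- `t b` fixes `v` if `bb v b = 0` -/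
theorem tr_fix {v b : VV m F} (h : bb v b = 0) : act (t b) v = v := by
  rw [act_t, h, zero_smul, add_zero]

/-- RUNG TR. Transitivity by transvections. -/
theorem exists_act_eq (hF : Fintype.card F = 2) {v v' : VV m F} (hv : v ≠ 0) (hv' : v' ≠ 0) :
    ∃ g : GG m F, act g v = v' := by
  by_cases hvv : v = v'
  · exact ⟨1, by rw [act_one, hvv]⟩
  · obtain ⟨z, hz1, hz2⟩ := exists_vals2 hF hv hv' hvv 1 1
    refine ⟨t (z + v') * t (v + z), ?_⟩
    rw [act_mul, tr_step hF (by rw [bb_comm hF, hz1]), tr_step hF hz2]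

theorem exists_fix_act (hF : Fintype.card F = 2) {v w w' : VV m F} (hv : v ≠ 0)
    (hw : bb w v = 0) (hw0 : w ≠ 0) (hwv : w ≠ v) (hw' : bb w' v = 0) (hw0' : w' ≠ 0) (hwv' : w' ≠ v) :
    ∃ g : GG m F, act g v = v ∧ (act g w = w' ∨ act g w = w' + v) := by
  have hvw : bb v w = 0 := by rw [bb_comm hF, hw]
  have hvw' : bb v w' = 0 := by rw [bb_comm hF, hw']
  by_cases h1 : w' = w
  · exact ⟨1, act_one v, Or.inl (by rw [act_one, h1])⟩
  by_cases h2 : w' = w + v
  · refine ⟨1, act_one v, Or.inr ?_⟩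
    rw [act_one, h2, vadd_cancel hF]
  rcases f01 hF (bb w w') with h3 | h3
  · obtain ⟨z, hzv, hzw, hzw'⟩ := exists_vals3 hF hv hw0 (Ne.symm hwv) hw0' hwv' h1
      (by rw [add_comm]; exact h2) 0 1 1
    refine ⟨t (z + w') * t (w + z), ?_, Or.inl ?_⟩
    · have hvz : bb v z = 0 := by rw [bb_comm hF, hzv]
      have e1 : act (t (w + z)) v = v := tr_fix (by rw [bb_add_right, hvw, hvz, add_zero])
      have e2 : act (t (z + w')) v = v := tr_fix (by rw [bb_add_right, hvw', hvz, add_zero])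
      rw [act_mul, e1, e2]
    · rw [act_mul, tr_step hF (by rw [bb_comm hF, hzw]), tr_step hF hzw']
  · refine ⟨t (w + w'), ?_, Or.inl (tr_step hF h3)⟩
    exact tr_fix (by rw [bb_add_right, hvw, hvw', add_zero])

end Cfsg.Agent.Lib.Helper5.SpTwo
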