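import Cfsg.Agent.Lib.Helper5.SpTwo.EG
import Cfsg.Agent.Lib.Helper5.SpTwo.TR
import Cfsg.Agent.Lib.Helper5.SpTwo.BURN

set_option autoImplicit false
set_option linter.unusedSectionVars false
set_option linter.unusedVariables false
set_option linter.style.haveILetI false

namespace Cfsg.Agent.Lib.Helper5.SpTwo

variable {F : Type*} [Field F] [Fintype F] {m : ℕ} {Ω : Type*} [Finite Ω]

/-- elements fixing `v` commute with `t v` -/
theorem c1b_comm_t {v : VV m F} {g : GG m F} (hg : act g v = v) : g * t v = t v * g := by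
  have := conj_t g v
  rw [hg] at this
  calc g * t v = (g * t v * g⁻¹) * g := by group
    _ = t v * g := by rw [this]

/-- the number of fixed points of `ep v w c` in a subset invariant under the stabiliser of `v` does not
depend on `w ∉ {0, v}` -/
theorem c1b_fix_card (hF : Fintype.card F = 2) (ρ : GG m F →* Equiv.Perm Ω) {v : VV m F}
    (hv : v ≠ 0) (P : Ω → Prop) (hP : ∀ g : GG m F, act g v = v → ∀ ω, P ω ↔ P (ρ g ω))
    {w₀ w : VV m F} (hw₀ : bb w₀ v = 0) (h0 : w₀ ≠ 0) (h0v : w₀ ≠ v)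
    (hw : bb w v = 0) (h1 : w ≠ 0) (h1v : w ≠ v) (c : F) :
    Nat.card {ω // P ω ∧ ρ (ep v w₀ c) ω = ω} = Nat.card {ω // P ω ∧ ρ (ep v w c) ω = ω} := by
  obtain ⟨g, hgv, hgw⟩ := exists_fix_act hF hv hw₀ h0 h0v hw h1 h1v
  have hconj : g * ep v w₀ c * g⁻¹ = ep v w c := by
    rw [conj_ep, hgv]
    rcases hgw with h | h
    · rw [h]
    · rw [h, ep_add_v hF hw]
  have hcomm : ep v w c * g = g * ep v w₀ c := by
    rw [← hconj]; group
  refine Nat.card_congr (Equiv.subtypeEquiv (ρ g) (fun ω => ?_))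
  have e1 : ρ (ep v w c) (ρ g ω) = ρ g (ρ (ep v w₀ c) ω) := by
    rw [← Equiv.Perm.mul_apply, ← Equiv.Perm.mul_apply, ← map_mul, ← map_mul, hcomm]
  rw [e1, (ρ g).apply_eq_iff_eq, ← hP g hgv]

/-- an element of `EE v` other than `1`, `t v` is `ep v w c` with `w ∉ {0, v}` -/
theorem c1b_mem_EE (hF : Fintype.card F = 2) {v : VV m F} {e : GG m F} (he : e ∈ EE v)
    (h1 : e ≠ 1) (h2 : e ≠ t v) :
    ∃ (w : VV m F) (c : F), bb w v = 0 ∧ w ≠ 0 ∧ w ≠ v ∧ e = ep v w c := by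
  obtain ⟨w, c, hw, rfl⟩ := (mem_EE hF).1 he
  have hz : ∀ c : F, ep v 0 c = 1 ∨ ep v 0 c = t v := by
    intro c
    rcases f01 hF c with rfl | rfl
    · exact Or.inl (ep_zero_zero hF v)
    · exact Or.inr (ep_zero_one hF v)
  refine ⟨w, c, hw, ?_, ?_, rfl⟩
  · rintro rfl
    rcases hz c with h | h
    · exact h1 h
    · exact h2 h
  · rintro rfl
    have : ep w w c = ep w 0 c := by
      have := ep_add_v hF (bb_zero_left w) c
      rwa [zero_add] at this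
    rw [this] at h1 h2
    rcases hz c with h | h
    · exact h1 h
    · exact h2 h

theorem c1b_t_mem (hF : Fintype.card F = 2) (v : VV m F) : t v ∈ EE v :=
  (mem_EE hF).2 ⟨0, 1, bb_zero_left v, (ep_zero_one hF v).symm⟩

theorem c1b_t_ne_one (hF : Fintype.card F = 2) {v : VV m F} (hv : v ≠ 0) : t v ≠ 1 := by
  intro h
  rw [← t_zero] at h
  exact hv (t_inj hF h)

/-- a witness of non-tightness -/
theorem c1b_nontight (hF : Fintype.card F = 2) (ρ : GG m F →* Equiv.Perm Ω) {v : VV m F} {ω : Ω}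
    (hn : ¬ Tight ρ ω v) :
    ∃ w₀, bb w₀ v = 0 ∧ w₀ ≠ 0 ∧ w₀ ≠ v ∧ ρ (ep v w₀ 0) ω ≠ ω ∧ ρ (ep v w₀ 1) ω ≠ ω := by
  unfold Tight at hn
  push Not at hn
  obtain ⟨w₀, hw₀, ha, hb⟩ := hn
  refine ⟨w₀, hw₀, ?_, ?_, ha, hb⟩
  · rintro rfl
    rw [ep_zero_zero hF, map_one] at ha
    exact ha rfl
  · rintro rfl
    have : ep w₀ w₀ 0 = ep w₀ 0 0 := by
      have := ep_add_v hF (bb_zero_left w₀) (0 : F)
      rwa [zero_add] at this
    rw [this, ep_zero_zero hF, map_one] at ha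
    exact ha rfl

/-- RUNG C1B. -/
theorem nontight_fixed (hF : Fintype.card F = 2) (hm : 1 ≤ m) (ρ : GG m F →* Equiv.Perm Ω) {v : VV m F} {ω : Ω}
    (hv : v ≠ 0) (h : ρ (t v) ω = ω) (hn : ¬ Tight ρ ω v) :
    2 ^ (2 * m - 2) ≤ Nat.card {ω // ρ (t v) ω = ω} := by
  classical
  haveI : Finite (GG m F) := Subtype.finite
  obtain ⟨w₀, hw₀, h0, h0v, ha, hb⟩ := c1b_nontight hF ρ hn
  have hP : ∀ g : GG m F, act g v = v → ∀ ω, ρ (t v) ω = ω ↔ ρ (t v) (ρ g ω) = ρ g ω := by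
    intro g hg ω
    have e1 : ρ (t v) (ρ g ω) = ρ g (ρ (t v) ω) := by
      rw [← Equiv.Perm.mul_apply, ← Equiv.Perm.mul_apply, ← map_mul, ← map_mul, c1b_comm_t hg]
    rw [e1, (ρ g).apply_eq_iff_eq]
  have key := abs1 (E := ↥(EE v)) (ρ.comp (EE v).subtype) {ω | ρ (t v) ω = ω}
    (by
      rintro ⟨e, he⟩ ω hω
      obtain ⟨w, c, hw, rfl⟩ := (mem_EE hF).1 he
      change ρ (t v) (ρ (ep v w c) ω) = ρ (ep v w c) ω
      have hω' : ρ (t v) ω = ω := hω
      have e1 : ρ (t v) (ρ (ep v w c) ω) = ρ (ep v w c) (ρ (t v) ω) := by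
        rw [← Equiv.Perm.mul_apply, ← Equiv.Perm.mul_apply, ← map_mul, ← map_mul, t_mul_ep hF hw,
          ep_mul_t hF hw]
      rw [e1, hω'])
    ⟨t v, c1b_t_mem hF v⟩
    (by
      intro hz
      exact c1b_t_ne_one hF hv (congrArg Subtype.val hz))
    (fun ω hω => hω)
    (Nat.card {ω // ρ (t v) ω = ω ∧ ρ (ep v w₀ 0) ω = ω})
    (by
      rintro ⟨e, he⟩ h1 h2
      obtain ⟨w, c, hw, hw0, hwv, rfl⟩ := c1b_mem_EE hF he
        (fun hh => h1 (Subtype.ext hh)) (fun hh => h2 (Subtype.ext hh))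
      rw [c1b_fix_card hF ρ hv (fun ω => ρ (t v) ω = ω) hP hw₀ h0 h0v hw hw0 hwv 0]
      refine Nat.card_congr (Equiv.subtypeEquivRight (fun ω => ?_))
      change (ρ (t v) ω = ω ∧ ρ (ep v w c) ω = ω) ↔ _
      refine and_congr_right (fun hω => ?_)
      rcases f01 hF c with rfl | rfl
      · rfl
      · have : ρ (ep v w 1) ω = ρ (ep v w 0) ω := by
          have e2 := ep_mul_t hF hw (0 : F)
          rw [zero_add] at e2
          rw [← e2, map_mul, Equiv.Perm.mul_apply, hω]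
        rw [this])
    ⟨⟨ep v w₀ 0, (mem_EE hF).2 ⟨w₀, 0, hw₀, rfl⟩⟩, ω, h, ha⟩
  have hc := card_EE hF hv
  have hS : Nat.card ({ω | ρ (t v) ω = ω} : Set Ω) = Nat.card {ω // ρ (t v) ω = ω} := rfl
  rw [hS] at key
  have hpow : 2 ^ (2 * m - 1) = 2 * 2 ^ (2 * m - 2) := by
    rw [← pow_succ']; congr 1; omega
  omega

end Cfsg.Agent.Lib.Helper5.SpTwo
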