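import Cfsg.Agent.Lib.Helper5.SpTwo.EG
import Cfsg.Agent.Lib.Helper5.SpTwo.TR
import Cfsg.Agent.Lib.Helper5.SpTwo.BURN
import Cfsg.Agent.Lib.Helper5.SpTwo.C1B

set_option autoImplicit false
set_option linter.unusedSectionVars false
set_option linter.unusedVariables false
set_option linter.style.haveILetI false

namespace Cfsg.Agent.Lib.Helper5.SpTwo

variable {F : Type*} [Field F] [Fintype F] {m : ℕ} {Ω : Type*} [Finite Ω]

/-- RUNG C1A. -/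
theorem nontight_moved (hF : Fintype.card F = 2) (ρ : GG m F →* Equiv.Perm Ω) {v : VV m F} {ω : Ω}
    (hv : v ≠ 0) (h : ρ (t v) ω ≠ ω) (hn : ¬ Tight ρ ω v) :
    2 ^ (2 * m - 1) ≤ Nat.card {ω // ρ (t v) ω ≠ ω} := by
  classical
  haveI : Finite (GG m F) := Subtype.finite
  obtain ⟨w₀, hw₀, h0, h0v, ha, hb⟩ := c1b_nontight hF ρ hn
  have hP : ∀ g : GG m F, act g v = v → ∀ ω, ρ (t v) ω ≠ ω ↔ ρ (t v) (ρ g ω) ≠ ρ g ω := by
    intro g hg ω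
    have e1 : ρ (t v) (ρ g ω) = ρ g (ρ (t v) ω) := by
      rw [← Equiv.Perm.mul_apply, ← Equiv.Perm.mul_apply, ← map_mul, ← map_mul, c1b_comm_t hg]
    rw [e1, Ne, Ne, (ρ g).apply_eq_iff_eq]
  have key := abs2 (E := ↥(EE v)) (ρ.comp (EE v).subtype) {ω | ρ (t v) ω ≠ ω}
    (by
      rintro ⟨e, he⟩ ω hω
      obtain ⟨w, c, hw, rfl⟩ := (mem_EE hF).1 he
      change ρ (t v) (ρ (ep v w c) ω) ≠ ρ (ep v w c) ω
      have hω' : ρ (t v) ω ≠ ω := hω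
      have e1 : ρ (t v) (ρ (ep v w c) ω) = ρ (ep v w c) (ρ (t v) ω) := by
        rw [← Equiv.Perm.mul_apply, ← Equiv.Perm.mul_apply, ← map_mul, ← map_mul, t_mul_ep hF hw,
          ep_mul_t hF hw]
      rw [e1, Ne, (ρ (ep v w c)).apply_eq_iff_eq]
      exact hω')
    ⟨t v, c1b_t_mem hF v⟩
    (by
      intro hz
      exact c1b_t_ne_one hF hv (congrArg Subtype.val hz))
    (Subtype.ext (t_sq hF v))
    (by
      rintro ⟨e, he⟩
      obtain ⟨w, c, hw, rfl⟩ := (mem_EE hF).1 he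
      apply Subtype.ext
      change ep v w c * t v = t v * ep v w c
      rw [t_mul_ep hF hw, ep_mul_t hF hw])
    (fun ω hω => hω)
    (Nat.card {ω // ρ (t v) ω ≠ ω ∧ ρ (ep v w₀ 0) ω = ω}
      + Nat.card {ω // ρ (t v) ω ≠ ω ∧ ρ (ep v w₀ 1) ω = ω})
    (by
      rintro ⟨e, he⟩ h1 h2
      obtain ⟨w, c, hw, hw0, hwv, rfl⟩ := c1b_mem_EE hF he
        (fun hh => h1 (Subtype.ext hh)) (fun hh => h2 (Subtype.ext hh))
      rw [c1b_fix_card hF ρ hv (fun ω => ρ (t v) ω ≠ ω) hP hw₀ h0 h0v hw hw0 hwv 0,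
        c1b_fix_card hF ρ hv (fun ω => ρ (t v) ω ≠ ω) hP hw₀ h0 h0v hw hw0 hwv 1]
      change Nat.card {ω // ρ (t v) ω ≠ ω ∧ ρ (ep v w c) ω = ω}
        + Nat.card {ω // ρ (t v) ω ≠ ω ∧ ρ (ep v w c * t v) ω = ω} = _
      rw [ep_mul_t hF hw]
      rcases f01 hF c with rfl | rfl
      · rw [zero_add]
      · rw [fadd hF, add_comm])
    ⟨⟨ep v w₀ 0, (mem_EE hF).2 ⟨w₀, 0, hw₀, rfl⟩⟩, ω, h, ha, by
      change ρ (ep v w₀ 0 * t v) ω ≠ ω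
      rw [ep_mul_t hF hw₀, zero_add]
      exact hb⟩
  have hc := card_EE hF hv
  have hS : Nat.card ({ω | ρ (t v) ω ≠ ω} : Set Ω) = Nat.card {ω // ρ (t v) ω ≠ ω} := rfl
  rw [hS] at key
  omega

end Cfsg.Agent.Lib.Helper5.SpTwo
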