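import Cfsg.Agent.Lib.Helper5.SpTwo.QZ

set_option autoImplicit false

namespace Cfsg.Agent.Lib.Helper5.SpTwo

variable {F : Type*} [Field F] [Fintype F] {m : ℕ} {Ω : Type*} [Finite Ω]

omit [Finite Ω] in
/-- which `ep v w c` fix `t_a ω`. -/
theorem c1c_fix_iff (hF : Fintype.card F = 2) (ρ : GG m F →* Equiv.Perm Ω) {v : VV m F} {ω : Ω}
    (h : ρ (t v) ω ≠ ω) (hT : Tight ρ ω v) {a w : VV m F} (ha : bb a v = 0)
    (hQa : qf ρ ω v a = 0) (hw : bb w v = 0) (c : F) :
    ρ (ep v w c) (ρ (t a) ω) = ρ (t a) ω ↔ c = qf ρ ω v w + bb w a := by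
  have hva : bb v a = 0 := by rw [bb_comm hF, ha]
  have hw' : bb (w + bb w a • a) v = 0 := by
    rw [bb_add_left, bb_smul_left, hw, ha, mul_zero, add_zero]
  have hconj : t a * ep v w c * t a = ep v (w + bb w a • a) c := by
    have := conj_ep (t a) v w c
    rwa [t_inv hF, act_t, act_t, hva, zero_smul, add_zero] at this
  have hQ' : qf ρ ω v (w + bb w a • a) = qf ρ ω v w + bb w a := by
    rcases f01 hF (bb w a) with h0 | h0
    · rw [h0, zero_smul, add_zero, add_zero]
    · rw [h0, one_smul, qf_add hF ρ h hT hw ha, hQa, h0, add_zero]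
  have h1 : ρ (ep v w c) (ρ (t a) ω) = ρ (t a) ω ↔ ρ (ep v (w + bb w a • a) c) ω = ω := by
    rw [← hconj, map_mul, map_mul, Equiv.Perm.mul_apply, Equiv.Perm.mul_apply]
    constructor
    · intro e
      rw [e, ← Equiv.Perm.mul_apply, ← map_mul, t_sq hF, map_one, Equiv.Perm.one_apply]
    · intro e
      have := congrArg (ρ (t a)) e
      rwa [← Equiv.Perm.mul_apply (ρ (t a)) (ρ (t a)), ← map_mul, t_sq hF, map_one,
        Equiv.Perm.one_apply] at this
  rw [h1, ← hQ']
  constructor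
  · intro e
    exact qf_unique hF ρ h hw' e
  · intro e
    rw [e]
    exact qf_spec ρ hT hw'

/-- RUNG C1C. -/
theorem tight_moved (hF : Fintype.card F = 2) (hm : 1 ≤ m) (ρ : GG m F →* Equiv.Perm Ω) {v : VV m F} {ω : Ω}
    (hv : v ≠ 0) (h : ρ (t v) ω ≠ ω) (hT : Tight ρ ω v) :
    2 ^ (2 * m - 2) ≤ Nat.card {ω // ρ (t v) ω ≠ ω} + 2 ^ (m - 1) := by
  classical
  let φ : {w : perp v // qf ρ ω v w.1 = 0} → {ω // ρ (t v) ω ≠ ω} := fun a =>
    ⟨ρ (t a.1.1) ω, by
      have ha : bb a.1.1 v = 0 := a.1.2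
      rw [← Equiv.Perm.mul_apply, ← map_mul, ← t_comm hF ha, map_mul, Equiv.Perm.mul_apply]
      exact fun e => h ((ρ (t a.1.1)).injective e)⟩
  have hφ : Function.Injective φ := by
    rintro ⟨⟨a, ha⟩, hQa⟩ ⟨⟨a', ha'⟩, hQa'⟩ e
    have e' : ρ (t a) ω = ρ (t a') ω := congrArg Subtype.val e
    have ha0 : bb a v = 0 := ha
    have ha0' : bb a' v = 0 := ha'
    simp only at hQa hQa'
    have hbb : ∀ w, bb w v = 0 → bb w (a + a') = 0 := by
      intro w hw
      have h1 := (c1c_fix_iff hF ρ h hT ha0 hQa hw (qf ρ ω v w + bb w a)).2 rfl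
      rw [e'] at h1
      have h2 := (c1c_fix_iff hF ρ h hT ha0' hQa' hw (qf ρ ω v w + bb w a)).1 h1
      rw [bb_add_right, add_left_cancel h2, fadd hF]
    have haa : a = a' := by
      rcases rad_perp hF hv hbb with h0 | h0
      · calc a = a + a' + a' := (vadd_cancel hF _ _).symm
          _ = a' := by rw [h0, zero_add]
      · exfalso
        have h3 : a' = a + v := by
          rw [← h0, vcl hF]
        have h4 : ρ (ep v a 1) ω = ω := by
          rw [ep_one hF, ← h3, map_mul, Equiv.Perm.mul_apply, ← e', ← Equiv.Perm.mul_apply,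
            ← map_mul, t_sq hF, map_one, Equiv.Perm.one_apply]
        have h5 := qf_unique hF ρ h ha0 h4
        rw [hQa] at h5
        exact one_ne_zero h5
    subst haa
    rfl
  have hle := Nat.card_le_card_of_injective φ hφ
  have hpos : 0 < 2 ^ (m - 1) := by positivity
  rcases qf_zeros hF hm ρ hv h hT with h1 | h1 <;> omega

end Cfsg.Agent.Lib.Helper5.SpTwo
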