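import Mathlib
import Cfsg.Agent.Lib.Helper17.Symp

set_option autoImplicit false

namespace Cfsg.Agent.Lib.Helper5.SpTwo

open Matrix Cfsg.Agent.Lib.Helper17

/-- the natural module -/
abbrev VV (m : ℕ) (F : Type*) := Fin m ⊕ Fin m → F

/-- the symplectic group -/
abbrev GG (m : ℕ) (F : Type*) [Field F] := ↥(Matrix.symplecticGroup (Fin m) F)

variable {F : Type*} [Field F] {m : ℕ}

/-- the form -/
def bb (x y : VV m F) : F := Cfsg.sympForm m F x y

/-- the action on vectors -/
def act (g : GG m F) (y : VV m F) : VV m F := g.1 *ᵥ y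

/-- the transvection `y ↦ y + (y,x) x` -/
def t (x : VV m F) : GG m F := ⟨Cfsg.sympTransvection m x 1, sympTransvection_mem m x 1⟩

theorem bb_self (x : VV m F) : bb x x = 0 := sympForm_self m x
theorem bb_add_left (x y z : VV m F) : bb (x + y) z = bb x z + bb y z := sympForm_add_left m x y z
theorem bb_add_right (x y z : VV m F) : bb x (y + z) = bb x y + bb x z := sympForm_add_right m x y z
theorem bb_smul_left (a : F) (x y : VV m F) : bb (a • x) y = a * bb x y := sympForm_smul_left m a x y
theorem bb_smul_right (a : F) (x y : VV m F) : bb x (a • y) = a * bb x y := sympForm_smul_right m a x y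
theorem bb_zero_left (x : VV m F) : bb 0 x = 0 := sympForm_zero_left m x
theorem bb_zero_right (x : VV m F) : bb x 0 = 0 := sympForm_zero_right m x
theorem bb_swap (x y : VV m F) : bb x y = - bb y x := sympForm_swap m x y
theorem bb_nondeg {x : VV m F} (h : ∀ y, bb x y = 0) : x = 0 := sympForm_left_eq_zero m h

theorem act_one (y : VV m F) : act (1 : GG m F) y = y := by simp [act]
theorem act_mul (g h : GG m F) (y : VV m F) : act (g * h) y = act g (act h y) :=
  sp_coe_mul_mulVec m g h y
theorem act_inv_act (g : GG m F) (y : VV m F) : act g⁻¹ (act g y) = y := sp_inv_mulVec m g y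
theorem act_act_inv (g : GG m F) (y : VV m F) : act g (act g⁻¹ y) = y := sp_mulVec_inv m g y
theorem bb_act (g : GG m F) (x y : VV m F) : bb (act g x) (act g y) = bb x y := sp_sympForm m g x y
theorem act_add (g : GG m F) (x y : VV m F) : act g (x + y) = act g x + act g y :=
  Matrix.mulVec_add _ _ _
theorem act_smul (g : GG m F) (a : F) (x : VV m F) : act g (a • x) = a • act g x :=
  Matrix.mulVec_smul _ _ _
theorem act_zero (g : GG m F) : act g (0 : VV m F) = 0 := Matrix.mulVec_zero _
theorem act_t (x y : VV m F) : act (t x) y = y + bb y x • x := by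
  simp [act, t, bb, sympTransvection_mulVec]

theorem ext_act {g h : GG m F} (H : ∀ y, act g y = act h y) : g = h :=
  Subtype.ext (Matrix.ext_iff_mulVec.2 H)


theorem t_zero : t (0 : VV m F) = 1 := ext_act (fun y => by simp [act_t, act_one])

theorem conj_t (g : GG m F) (x : VV m F) : g * t x * g⁻¹ = t (act g x) := by
  apply ext_act
  intro y
  rw [act_mul, act_mul, act_t, act_t, act_add, act_smul, act_act_inv]
  congr 2
  rw [← bb_act g, act_act_inv]

section two

variable [Fintype F] (hF : Fintype.card F = 2)
include hF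

theorem f01 (a : F) : a = 0 ∨ a = 1 := by
  classical
  by_contra h
  push Not at h
  have : ({0, 1, a} : Finset F).card ≤ Fintype.card F := Finset.card_le_univ _
  rw [Finset.card_insert_of_notMem (by simp [h.1.symm]), Finset.card_insert_of_notMem (by simp [h.2.symm]),
    Finset.card_singleton, hF] at this
  omega

theorem fadd (a : F) : a + a = 0 := by
  have h1 : (1 : F) + 1 = 0 := by
    rcases f01 hF ((1 : F) + 1) with h | h
    · exact h
    · exact absurd (by simpa using h) (one_ne_zero (α := F))
  calc a + a = a * (1 + 1) := by ring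
    _ = 0 := by rw [h1, mul_zero]

theorem fneg (a : F) : -a = a := by
  have := fadd hF a
  exact neg_eq_of_add_eq_zero_left this

theorem vadd (x : VV m F) : x + x = 0 := by
  funext i
  exact fadd hF (x i)

theorem vneg (x : VV m F) : -x = x := neg_eq_of_add_eq_zero_left (vadd hF x)

theorem vadd_cancel (x y : VV m F) : x + y + y = x := by rw [add_assoc, vadd hF, add_zero]

theorem bb_comm (x y : VV m F) : bb x y = bb y x := by rw [bb_swap, fneg hF]

theorem t_sq (x : VV m F) : t x * t x = 1 := by
  apply ext_act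
  intro y
  rw [act_mul, act_t, act_t, act_one, bb_add_left, bb_smul_left, bb_self, mul_zero, add_zero, add_assoc,
    vadd hF, add_zero]

theorem t_inv (x : VV m F) : (t x)⁻¹ = t x := inv_eq_of_mul_eq_one_left (t_sq hF x)

theorem t_conj (x y : VV m F) : t y * t x * t y = t (x + bb x y • y) := by
  have := conj_t (t y) x
  rwa [t_inv hF, act_t] at this

theorem t_comm {x y : VV m F} (h : bb x y = 0) : t x * t y = t y * t x := by
  have := t_conj hF x y
  rw [h, zero_smul, add_zero] at this
  calc t x * t y = (t y * t y) * (t x * t y) := by rw [t_sq hF, one_mul]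
    _ = t y * (t y * t x * t y) := by group
    _ = t y * t x := by rw [this]

theorem t_braid {x y : VV m F} (h : bb x y = 1) : t y * t x * t y = t (x + y) := by
  have := t_conj hF x y
  rwa [h, one_smul] at this

theorem vcl (x y : VV m F) : x + (x + y) = y := by rw [← add_assoc, vadd hF, zero_add]

end two

/-- `ep v w c` is the element `x ↦ x + (x,v) w + (x,w) v + c (x,v) v` of `O_2(P_v)` (for `(w,v) = 0`):
`ep v w 1 = t w * t (w+v)`, `ep v w 0 = t v * t w * t (w+v)`. -/
def ep (v w : VV m F) (c : F) : GG m F := t ((1 + c) • v) * t w * t (w + v)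

theorem conj_ep (g : GG m F) (v w : VV m F) (c : F) :
    g * ep v w c * g⁻¹ = ep (act g v) (act g w) c := by
  unfold ep
  rw [← act_smul, ← act_add, ← conj_t, ← conj_t, ← conj_t]
  group

section two'

variable [Fintype F] (hF : Fintype.card F = 2)
include hF

theorem ep_one (v w : VV m F) : ep v w 1 = t w * t (w + v) := by
  unfold ep
  rw [fadd hF, zero_smul, t_zero, one_mul]

theorem ep_zero (v w : VV m F) : ep v w 0 = t v * t w * t (w + v) := by
  unfold ep
  rw [add_zero, one_smul]

theorem ep_act {v w : VV m F} (hw : bb w v = 0) (c : F) (x : VV m F) :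
    act (ep v w c) x = x + bb x v • w + bb x w • v + (c * bb x v) • v := by
  have hv : bb v w = 0 := by rw [bb_comm hF, hw]
  unfold ep
  simp only [act_mul, act_t, bb_add_left, bb_add_right, bb_smul_left, bb_smul_right, bb_self, hw, hv,
    mul_zero, add_zero, zero_add]
  rcases f01 hF c with rfl | rfl <;> rcases f01 hF (bb x v) with h1 | h1 <;>
    rcases f01 hF (bb x w) with h2 | h2 <;>
    simp only [h1, h2, fadd hF, zero_smul, one_smul, add_zero, zero_add, mul_zero, mul_one, smul_zero,
      one_mul, zero_mul] <;>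
    simp only [add_assoc, add_left_comm, add_comm, vcl hF, vadd hF, add_zero, zero_add]

theorem ep_mul {v w w' : VV m F} (hw : bb w v = 0) (hw' : bb w' v = 0) (c c' : F) :
    ep v w c * ep v w' c' = ep v (w + w') (c + c' + bb w' w) := by
  have hv : bb v w = 0 := by rw [bb_comm hF, hw]
  apply ext_act
  intro x
  rw [act_mul, ep_act hF hw', ep_act hF hw, ep_act hF (by rw [bb_add_left, hw, hw', add_zero])]
  simp only [bb_add_left, bb_add_right, bb_smul_left, bb_self, hw, hw', hv, mul_zero, add_zero]
  module

theorem ep_add_v {v w : VV m F} (hw : bb w v = 0) (c : F) : ep v (w + v) c = ep v w c := by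
  apply ext_act
  intro x
  rw [ep_act hF hw, ep_act hF (by rw [bb_add_left, hw, bb_self, add_zero])]
  simp only [bb_add_right, smul_add, add_smul]
  simp only [add_assoc, add_left_comm, add_comm, vcl hF]

theorem ep_zero_zero (v : VV m F) : ep v 0 0 = 1 := by
  rw [ep_zero hF, t_zero, mul_one, zero_add, t_sq hF]

theorem ep_zero_one (v : VV m F) : ep v 0 1 = t v := by
  rw [ep_one hF, t_zero, one_mul, zero_add]

theorem ep_mul_t {v w : VV m F} (hw : bb w v = 0) (c : F) : ep v w c * t v = ep v w (c + 1) := by
  rw [← ep_zero_one hF, ep_mul hF hw (bb_zero_left v), add_zero, bb_zero_left, add_zero]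

theorem t_mul_ep {v w : VV m F} (hw : bb w v = 0) (c : F) : t v * ep v w c = ep v w (c + 1) := by
  rw [← ep_zero_one hF, ep_mul hF (bb_zero_left v) hw, zero_add, bb_zero_right, add_zero, add_comm]

theorem ep_sq {v w : VV m F} (hw : bb w v = 0) (c : F) : ep v w c * ep v w c = 1 := by
  rw [ep_mul hF hw hw, bb_self, add_zero, fadd hF, vadd hF, ep_zero_zero hF]

theorem ep_comm {v w w' : VV m F} (hw : bb w v = 0) (hw' : bb w' v = 0) (c c' : F) :
    ep v w c * ep v w' c' = ep v w' c' * ep v w c := by
  rw [ep_mul hF hw hw', ep_mul hF hw' hw, add_comm w, add_comm c, bb_comm hF w' w]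

end two'

/-- `v^⊥` -/
def perp (v : VV m F) : Submodule F (VV m F) where
  carrier := {w | bb w v = 0}
  add_mem' := by
    intro a b ha hb
    simp only [Set.mem_setOf_eq] at *
    rw [bb_add_left, ha, hb, add_zero]
  zero_mem' := bb_zero_left v
  smul_mem' := by
    intro c a ha
    simp only [Set.mem_setOf_eq] at *
    rw [bb_smul_left, ha, mul_zero]

theorem mem_perp {v w : VV m F} : w ∈ perp v ↔ bb w v = 0 := Iff.rfl

/-- `O_2(P_v)` -/
def EE (v : VV m F) : Subgroup (GG m F) :=
  Subgroup.closure {g | ∃ (w : VV m F) (c : F), bb w v = 0 ∧ g = ep v w c}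

/-- `(ω, v)` is tight if the `E_v`-orbit of `ω` is the `⟨t_v⟩`-orbit. -/
def Tight {Ω : Type*} (ρ : GG m F →* Equiv.Perm Ω) (ω : Ω) (v : VV m F) : Prop :=
  ∀ w, bb w v = 0 → ρ (ep v w 0) ω = ω ∨ ρ (ep v w 1) ω = ω

open Classical in
/-- the quadratic form on `v^⊥` attached to a tight pair with `t_v ω ≠ ω` -/
noncomputable def qf {Ω : Type*} (ρ : GG m F →* Equiv.Perm Ω) (ω : Ω) (v w : VV m F) : F :=
  if ρ (ep v w 0) ω = ω then 0 else 1

/-- stabiliser of a function `Q` on `V` -/
def stabQ (Q : VV m F → F) : Subgroup (GG m F) where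
  carrier := {g | ∀ x, Q (act g x) = Q x}
  mul_mem' := by
    intro a b ha hb x
    rw [act_mul, ha, hb]
  one_mem' := by
    intro x
    rw [act_one]
  inv_mem' := by
    intro a ha x
    have := ha (act a⁻¹ x)
    rw [act_act_inv] at this
    exact this.symm

end Cfsg.Agent.Lib.Helper5.SpTwo
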