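import Cfsg.Agent.Lib.Helper5.SpTwo.GEO2

set_option autoImplicit false
set_option linter.unusedSectionVars false
set_option linter.unusedVariables false

namespace Cfsg.Agent.Lib.Helper5.SpTwo

variable {F : Type*} [Field F] [Fintype F] {m : ℕ}

/-- RUNG EG. -/
theorem mem_EE (hF : Fintype.card F = 2) {v : VV m F} {g : GG m F} :
    g ∈ EE v ↔ ∃ (w : VV m F) (c : F), bb w v = 0 ∧ g = ep v w c := by
  constructor
  · intro hg
    unfold EE at hg
    induction hg using Subgroup.closure_induction with
    | mem x hx => exact hx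
    | one => exact ⟨0, 0, bb_zero_left v, (ep_zero_zero hF v).symm⟩
    | mul x y _ _ hx hy =>
      obtain ⟨w, c, hw, rfl⟩ := hx
      obtain ⟨w', c', hw', rfl⟩ := hy
      exact ⟨w + w', c + c' + bb w' w, by rw [bb_add_left, hw, hw', add_zero], ep_mul hF hw hw' c c'⟩
    | inv x _ hx =>
      obtain ⟨w, c, hw, rfl⟩ := hx
      exact ⟨w, c, hw, inv_eq_of_mul_eq_one_left (ep_sq hF hw c)⟩
  · intro hg
    exact Subgroup.subset_closure hg

theorem card_EE (hF : Fintype.card F = 2) {v : VV m F} (hv : v ≠ 0) :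
    2 ^ (2 * m - 1) ≤ Nat.card (EE v) := by
  classical
  obtain ⟨y0, hy0⟩ := geo1_step1 hF hv
  rw [← card_perp hF hv]
  have hact : ∀ u : VV m F, bb u v = 0 → act (ep v u (bb y0 u)) y0 = y0 + u := by
    intro u hu
    rw [ep_act hF hu, hy0, one_smul, mul_one, add_assoc, ← add_smul, fadd hF, zero_smul, add_zero]
  haveI : Finite (GG m F) := Subtype.finite
  refine Nat.card_le_card_of_injective
    (fun u : perp v => (⟨ep v u.1 (bb y0 u.1), (mem_EE hF).2 ⟨u.1, _, u.2, rfl⟩⟩ : EE v)) ?_
  intro u u' huu
  have h1 : ep v u.1 (bb y0 u.1) = ep v u'.1 (bb y0 u'.1) := congrArg Subtype.val huu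
  have h2 := congrArg (fun g => act g y0) h1
  simp only [hact u.1 u.2, hact u'.1 u'.2] at h2
  exact Subtype.ext (add_left_cancel h2)

/-- `t a = t b → a = b`. -/
theorem t_inj (hF : Fintype.card F = 2) {a b : VV m F} (h : t a = t b) : a = b := by
  have key : ∀ y, bb y a • a = bb y b • b := by
    intro y
    have := congrArg (fun g => act g y) h
    simp only [act_t] at this
    exact add_left_cancel this
  by_cases ha : a = 0
  · by_contra hab
    have hb : b ≠ 0 := fun hb => hab (by rw [ha, hb])
    obtain ⟨y, hy⟩ := geo1_step1 hF hb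
    have := key y
    rw [hy, one_smul, ha, smul_zero] at this
    exact hb this.symm
  · obtain ⟨y, hy⟩ := geo1_step1 hF ha
    have := key y
    rw [hy, one_smul] at this
    rcases f01 hF (bb y b) with h0 | h1
    · rw [h0, zero_smul] at this
      exact absurd this ha
    · rwa [h1, one_smul] at this

end Cfsg.Agent.Lib.Helper5.SpTwo
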