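import Cfsg.Agent.Lib.Helper5.SpTwo.Defs
import Cfsg.Agent.Lib.Helper5.SpTwo.GS
import Cfsg.Agent.Lib.Helper5.SpTwo.NUM

set_option autoImplicit false

namespace Cfsg.Agent.Lib.Helper5.SpTwo

variable {F : Type*} [Field F] [Fintype F] {m : ℕ}

omit [Field F] in
theorem ex1_card_VV (hF : Fintype.card F = 2) : Nat.card (VV m F) = 2 ^ (2 * m) := by
  classical
  rw [Nat.card_eq_fintype_card, Fintype.card_fun, hF, Fintype.card_sum, Fintype.card_fin, two_mul]

/-- the number of zeros of a quadratic form polarising to `bb`. -/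
theorem ex1_zeros (hF : Fintype.card F = 2) (hm : 1 ≤ m) (Q : VV m F → F)
    (hQ : ∀ x y, Q (x + y) = Q x + Q y + bb x y) :
    Nat.card {a : VV m F // Q a = 0} = 2 ^ (2 * m - 1) + 2 ^ (m - 1) ∨
      Nat.card {a : VV m F // Q a = 0} + 2 ^ (m - 1) = 2 ^ (2 * m - 1) := by
  have hQ0 : Q 0 = 0 := by
    have := hQ 0 0
    rw [add_zero, bb_zero_left, add_zero] at this
    exact add_eq_left.1 this.symm
  have hz : ∀ z : VV m F, (∀ x, bb x z = 0) → z = 0 := fun z hz =>
    bb_nondeg (fun y => by rw [bb_comm hF]; exact hz y)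
  have hg := gs hF (U := VV m F) bb bb_add_left Q hQ (by
    intro z h
    rw [hz z h]; exact hQ0)
  have h1 : Nat.card {z : VV m F // ∀ x, bb x z = 0} = 1 := by
    have : Unique {z : VV m F // ∀ x, bb x z = 0} :=
      { default := ⟨0, fun x => bb_zero_right x⟩
        uniq := fun z => Subtype.ext (hz z.1 z.2) }
    exact Nat.card_unique
  rw [h1, ex1_card_VV hF] at hg
  exact num_zeros' hm hg

theorem ex1_arith (hm : 1 ≤ m) {Z : ℕ} (h : Z + 2 ^ (m - 1) = 2 ^ (2 * m - 1)) :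
    Z = 2 ^ (m - 1) * (2 ^ m - 1) := by
  have h1 : 2 ^ (2 * m - 1) = 2 ^ (m - 1) * 2 ^ m := by
    rw [← pow_add]; congr 1; omega
  have h2 : 1 ≤ 2 ^ m := Nat.one_le_two_pow
  rw [Nat.mul_sub, mul_one, ← h1, ← h]
  omega

/-- RUNG EX1. -/
theorem exists_minus (hF : Fintype.card F = 2) (hm : 1 ≤ m) :
    ∃ Q : VV m F → F, (∀ x y, Q (x + y) = Q x + Q y + bb x y) ∧
      Nat.card {a : VV m F // Q a = 0} = 2 ^ (m - 1) * (2 ^ m - 1) := by
  classical
  let Q₀ : VV m F → F := fun x => ∑ i, x (Sum.inl i) * x (Sum.inr i)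
  have hQ₀ : ∀ x y, Q₀ (x + y) = Q₀ x + Q₀ y + bb x y := by
    intro x y
    simp only [Q₀, bb, Cfsg.Agent.Lib.Helper17.sympForm_eq_sum, ← Finset.sum_add_distrib]
    apply Finset.sum_congr rfl
    intro i _
    simp only [Pi.add_apply]
    have := fadd hF (x (Sum.inl i) * y (Sum.inr i))
    linear_combination this
  rcases ex1_zeros hF hm Q₀ hQ₀ with hp | hp
  swap
  · exact ⟨Q₀, hQ₀, ex1_arith hm hp⟩
  let i₀ : Fin m := ⟨0, hm⟩
  let b : VV m F := fun j => Sum.elim (fun i => if i = i₀ then 1 else 0)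
    (fun i => if i = i₀ then 1 else 0) j
  have hb : Q₀ b = 1 := by
    simp [Q₀, b]
  let Q : VV m F → F := fun x => Q₀ x + bb x b
  have hQ : ∀ x y, Q (x + y) = Q x + Q y + bb x y := by
    intro x y
    simp only [Q, hQ₀, bb_add_left]
    ring
  refine ⟨Q, hQ, ex1_arith hm ?_⟩
  have hsh : ∀ x, Q₀ (x + b) = Q x + 1 := by
    intro x
    simp only [Q, hQ₀, hb]
    ring
  have e : {a : VV m F // Q a = 0} ≃ {a : VV m F // ¬ Q₀ a = 0} :=
    { toFun := fun a => ⟨a.1 + b, by rw [hsh, a.2, zero_add]; exact one_ne_zero⟩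
      invFun := fun a => ⟨a.1 + b, by
        have h1 := hsh (a.1 + b)
        rw [vadd_cancel hF] at h1
        have h2 : Q₀ a.1 = 1 := (f01 hF _).resolve_left a.2
        rw [h2] at h1
        exact (add_eq_right.1 h1.symm)⟩
      left_inv := fun a => Subtype.ext (vadd_cancel hF _ _)
      right_inv := fun a => Subtype.ext (vadd_cancel hF _ _) }
  have h1 : Nat.card {a : VV m F // Q₀ a = 0} + Nat.card {a : VV m F // ¬ Q₀ a = 0}
      = Nat.card (VV m F) := by
    simp only [Nat.card_eq_fintype_card]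
    exact Fintype.card_subtype_compl (fun a => Q₀ a = 0) ▸ by
      have := Fintype.card_subtype_le (fun a : VV m F => Q₀ a = 0)
      omega
  rw [Nat.card_congr e]
  rw [hp, ex1_card_VV hF] at h1
  have h2 : 2 ^ (2 * m) = 2 * 2 ^ (2 * m - 1) := by
    rw [← pow_succ']; congr 1; omega
  omega

end Cfsg.Agent.Lib.Helper5.SpTwo
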