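import Cfsg.Agent.Lib.Helper5.SpTwo.Defs
import Cfsg.Agent.Lib.Helper5.SpTwo.GS

set_option autoImplicit false

namespace Cfsg.Agent.Lib.Helper5.SpTwo

variable {F : Type*} [Field F] [Fintype F] {m : ℕ}

/-- RUNG EX2a: additive functionals are represented. -/
theorem exists_repr (hF : Fintype.card F = 2) (D : VV m F → F) (hD : ∀ x y, D (x + y) = D x + D y) :
    ∃ b : VV m F, ∀ x, D x = bb x b := by
  classical
  have h0 : D 0 = 0 := by
    have := hD 0 0
    rw [add_zero] at this
    exact add_eq_left.1 this.symm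
  let L : VV m F →ₗ[F] F :=
    { toFun := D
      map_add' := hD
      map_smul' := by
        intro a x
        rcases f01 hF a with rfl | rfl
        · simp [h0]
        · simp }
  refine ⟨fun j => Sum.elim (fun i => D (Pi.single (Sum.inr i) 1))
    (fun i => - D (Pi.single (Sum.inl i) 1)) j, fun x => ?_⟩
  have h1 : D x = ∑ j, x j • L (fun k => if j = k then 1 else 0) :=
    LinearMap.pi_apply_eq_sum_univ L x
  have h2 : ∀ j : Fin m ⊕ Fin m, L (fun k => if j = k then 1 else 0) = D (Pi.single j 1) := by
    intro j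
    change D _ = D _
    congr 1
    funext k
    simp [Pi.single_apply, eq_comm]
  rw [h1, bb, Cfsg.Agent.Lib.Helper17.sympForm_eq_sum, Fintype.sum_sum_type]
  simp only [h2, Sum.elim_inl, Sum.elim_inr, smul_eq_mul, mul_neg, sub_neg_eq_add]
  rw [Finset.sum_add_distrib, add_comm]

omit [Fintype F] in
theorem ex2_Q_zero (Q : VV m F → F)
    (hQ : ∀ x y, Q (x + y) = Q x + Q y + bb x y) : Q 0 = 0 := by
  have := hQ 0 0
  rw [add_zero, bb_zero_left, add_zero] at this
  exact add_eq_left.1 this.symm

/-- `2 Z ≠ |V|`. -/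
theorem ex2_two_mul_ne (hF : Fintype.card F = 2) (Q : VV m F → F)
    (hQ : ∀ x y, Q (x + y) = Q x + Q y + bb x y) :
    2 * Nat.card {a : VV m F // Q a = 0} ≠ Nat.card (VV m F) := by
  intro h
  have hg := gs hF (U := VV m F) bb bb_add_left Q hQ (by
    intro z hz
    have : z = 0 := bb_nondeg (fun y => by rw [bb_comm hF]; exact hz y)
    rw [this]; exact ex2_Q_zero Q hQ)
  have h1 : (2 * (Nat.card {x : VV m F // Q x = 0} : ℤ) - Nat.card (VV m F)) = 0 := by
    rw [← h]; push_cast; ring
  rw [h1] at hg
  have h2 : Nat.card {z : VV m F // ∀ x, bb x z = 0} ≠ 0 := by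
    have : Nonempty {z : VV m F // ∀ x, bb x z = 0} := ⟨⟨0, fun x => bb_zero_right x⟩⟩
    exact Nat.card_ne_zero.2 ⟨this, inferInstance⟩
  have h3 : Nat.card (VV m F) ≠ 0 := Nat.card_ne_zero.2 ⟨⟨0⟩, inferInstance⟩
  have h4 : ((Nat.card {z : VV m F // ∀ x, bb x z = 0} : ℤ)) * (Nat.card (VV m F) : ℤ) ≠ 0 :=
    mul_ne_zero (by exact_mod_cast h2) (by exact_mod_cast h3)
  exact h4 (by rw [← hg]; ring)

/-- the vector attached to `g`. -/
theorem ex2_exists_psi (hF : Fintype.card F = 2) (Q : VV m F → F)
    (hQ : ∀ x y, Q (x + y) = Q x + Q y + bb x y) (g : GG m F) :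
    ∃ b : VV m F, ∀ x, Q (act g x) = Q x + bb x b := by
  obtain ⟨b, hb⟩ := exists_repr hF (fun x => Q (act g x) + Q x) (by
    intro x y
    simp only [act_add, hQ, bb_act]
    have := fadd hF (bb x y)
    linear_combination this)
  refine ⟨b, fun x => ?_⟩
  have := hb x
  have h2 := fadd hF (Q x)
  linear_combination this - h2

theorem ex2_psi_zero (hF : Fintype.card F = 2) (Q : VV m F → F)
    (hQ : ∀ x y, Q (x + y) = Q x + Q y + bb x y) (g : GG m F) (b : VV m F)
    (hb : ∀ x, Q (act g x) = Q x + bb x b) : Q b = 0 := by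
  classical
  rcases f01 hF (Q b) with h | h
  · exact h
  exfalso
  apply ex2_two_mul_ne hF Q hQ
  -- `{Q = 0} ≃ {Q ≠ 0}` via `x ↦ act g (x + b)`
  have e : {a : VV m F // Q a = 0} ≃ {a : VV m F // ¬ Q a = 0} :=
    { toFun := fun a => ⟨act g (a.1 + b), by
        rw [hb, hQ, a.2, h, bb_add_left, bb_self]
        have := fadd hF (bb a.1 b)
        intro h'
        have : (1 : F) = 0 := by linear_combination h' - this
        exact one_ne_zero this⟩
      invFun := fun a => ⟨act g⁻¹ a.1 + b, by
        have h1 := hb (act g⁻¹ a.1)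
        rw [act_act_inv] at h1
        have h2 : Q a.1 = 1 := (f01 hF _).resolve_left a.2
        rw [hQ, h]
        have := fadd hF (1 : F)
        linear_combination this - h1 + h2⟩
      left_inv := by
        intro a
        apply Subtype.ext
        simp only [act_inv_act]
        exact vadd_cancel hF _ _
      right_inv := by
        intro a
        apply Subtype.ext
        simp only
        rw [vadd_cancel hF, act_act_inv] }
  have h1 : Nat.card {a : VV m F // Q a = 0} + Nat.card {a : VV m F // ¬ Q a = 0}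
      = Nat.card (VV m F) := by
    simp only [Nat.card_eq_fintype_card]
    exact Fintype.card_subtype_compl (fun a => Q a = 0) ▸ by
      have := Fintype.card_subtype_le (fun a : VV m F => Q a = 0)
      omega
  rw [← h1, ← Nat.card_congr e]
  ring

theorem ex2_psi_t (hF : Fintype.card F = 2) (Q : VV m F → F)
    (hQ : ∀ x y, Q (x + y) = Q x + Q y + bb x y) (a : VV m F) (ha : Q a = 0) (x : VV m F) :
    Q (act (t a) x) = Q x + bb x a := by
  rw [act_t]
  rcases f01 hF (bb x a) with h | h
  · rw [h, zero_smul, add_zero, add_zero]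
  · rw [h, one_smul, hQ, ha, h, add_zero]

/-- RUNG EX2. -/
theorem index_stabQ (hF : Fintype.card F = 2) (Q : VV m F → F)
    (hQ : ∀ x y, Q (x + y) = Q x + Q y + bb x y) :
    (stabQ Q).index = Nat.card {a : VV m F // Q a = 0} := by
  classical
  choose Ψ hΨ using ex2_exists_psi hF Q hQ
  have huniq : ∀ b b' : VV m F, (∀ x, bb x b = bb x b') → b = b' := by
    intro b b' h
    have : b + b' = 0 := bb_nondeg (fun y => by
      rw [bb_comm hF, bb_add_right, h y, fadd hF])
    calc b = b + b' + b' := (vadd_cancel hF _ _).symm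
      _ = b' := by rw [this, zero_add]
  have key : ∀ g h : GG m F, Ψ g⁻¹ = Ψ h⁻¹ ↔ g⁻¹ * h ∈ stabQ Q := by
    intro g h
    constructor
    · intro e x
      rw [act_mul, hΨ g⁻¹, e]
      have := hΨ h⁻¹ (act h x)
      rw [act_inv_act] at this
      exact this.symm
    · intro e
      apply huniq
      intro x
      have h1 := e (act h⁻¹ x)
      rw [act_mul, act_act_inv, hΨ, hΨ] at h1
      exact add_left_cancel h1
  let f : GG m F ⧸ stabQ Q → {a : VV m F // Q a = 0} :=
    Quotient.lift (fun g => (⟨Ψ g⁻¹, ex2_psi_zero hF Q hQ g⁻¹ _ (hΨ g⁻¹)⟩ : {a : VV m F // Q a = 0}))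
      (by
        intro g h hgh
        apply Subtype.ext
        exact (key g h).2 (QuotientGroup.leftRel_apply.1 hgh))
  have hf : Function.Bijective f := by
    constructor
    · intro x y
      induction x using QuotientGroup.induction_on with
      | H g =>
        induction y using QuotientGroup.induction_on with
        | H h =>
          intro e
          exact QuotientGroup.eq.2 ((key g h).1 (congrArg Subtype.val e))
    · intro a
      refine ⟨((t a.1)⁻¹ : GG m F), Subtype.ext ?_⟩
      change Ψ ((t a.1)⁻¹)⁻¹ = a.1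
      rw [inv_inv]
      apply huniq
      intro x
      have h1 := hΨ (t a.1) x
      rw [ex2_psi_t hF Q hQ a.1 a.2] at h1
      exact (add_left_cancel h1).symm
  exact Nat.card_eq_of_bijective f hf

end Cfsg.Agent.Lib.Helper5.SpTwo
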