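import Cfsg.Agent.Lib.Helper5.SpTwo.Defs

set_option autoImplicit false
set_option linter.unusedSectionVars false
set_option linter.unusedVariables false

namespace Cfsg.Agent.Lib.Helper5.SpTwo

variable {F : Type*} [Field F] [Fintype F] {m : ℕ}

theorem geo1_nd (hF : Fintype.card F = 2) {z : VV m F} (h : ∀ x, bb x z = 0) : z = 0 :=
  bb_nondeg (fun y => by rw [bb_comm hF]; exact h y)

theorem geo1_step1 (hF : Fintype.card F = 2) {a : VV m F} (ha : a ≠ 0) : ∃ y, bb y a = 1 := by
  by_contra h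
  push Not at h
  exact ha (geo1_nd hF (fun x => (f01 hF (bb x a)).resolve_right (h x)))

theorem geo1_eq_of_add (hF : Fintype.card F = 2) {a b : VV m F} (h : b + a = 0) : b = a := by
  have := vadd_cancel hF b a
  rw [h, zero_add] at this
  exact this.symm

theorem geo1_step2 (hF : Fintype.card F = 2) {a b : VV m F} (ha : a ≠ 0) (hb : b ≠ 0)
    (hab : a ≠ b) : ∃ y, bb y a = 0 ∧ bb y b = 1 := by
  by_contra h
  push Not at h
  have h' : ∀ y, bb y a = 0 → bb y b = 0 := fun y hy => (f01 hF (bb y b)).resolve_right (h y hy)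
  obtain ⟨y1, hy1⟩ := geo1_step1 hF ha
  have key : b + bb y1 b • a = 0 := by
    apply geo1_nd hF
    intro x
    have h1 := h' (x + bb x a • y1) (by rw [bb_add_left, bb_smul_left, hy1, mul_one, fadd hF])
    rw [bb_add_left, bb_smul_left] at h1
    rw [bb_add_right, bb_smul_right, ← h1]
    ring
  rcases f01 hF (bb y1 b) with hg | hg
  · rw [hg, zero_smul, add_zero] at key
    exact hb key
  · rw [hg, one_smul] at key
    exact hab (geo1_eq_of_add hF key).symm

/-- RUNG GEO1. Independent vectors give independent functionals `bb · a`. -/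
theorem exists_vals2 (hF : Fintype.card F = 2) {a b : VV m F} (ha : a ≠ 0) (hb : b ≠ 0) (hab : a ≠ b)
    (α β : F) : ∃ x, bb x a = α ∧ bb x b = β := by
  obtain ⟨y1, hy1⟩ := geo1_step1 hF ha
  obtain ⟨y2, hy2a, hy2b⟩ := geo1_step2 hF ha hb hab
  refine ⟨α • y1 + (β + α * bb y1 b) • y2, ?_, ?_⟩
  · rw [bb_add_left, bb_smul_left, bb_smul_left, hy1, hy2a]; ring
  · rw [bb_add_left, bb_smul_left, bb_smul_left, hy2b, mul_one, add_comm β, ← add_assoc, fadd hF,
      zero_add]

theorem geo1_step3 (hF : Fintype.card F = 2) {a b c : VV m F} (ha : a ≠ 0) (hb : b ≠ 0)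
    (hab : a ≠ b) (hc : c ≠ 0) (hca : c ≠ a) (hcb : c ≠ b) (hcab : c ≠ a + b) :
    ∃ y, bb y a = 0 ∧ bb y b = 0 ∧ bb y c = 1 := by
  by_contra h
  push Not at h
  have h' : ∀ y, bb y a = 0 → bb y b = 0 → bb y c = 0 :=
    fun y hy hy' => (f01 hF (bb y c)).resolve_right (h y hy hy')
  obtain ⟨y1, hy1a, hy1b⟩ := exists_vals2 hF ha hb hab 1 0
  obtain ⟨y2, hy2a, hy2b⟩ := exists_vals2 hF ha hb hab 0 1
  have key : c + (bb y1 c • a + bb y2 c • b) = 0 := by
    apply geo1_nd hF
    intro x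
    have h1 := h' (x + bb x a • y1 + bb x b • y2)
      (by rw [bb_add_left, bb_add_left, bb_smul_left, bb_smul_left, hy1a, hy2a, mul_one, mul_zero,
            add_zero, fadd hF])
      (by rw [bb_add_left, bb_add_left, bb_smul_left, bb_smul_left, hy1b, hy2b, mul_one, mul_zero,
            add_zero, fadd hF])
    rw [bb_add_left, bb_add_left, bb_smul_left, bb_smul_left] at h1
    rw [bb_add_right, bb_add_right, bb_smul_right, bb_smul_right, ← h1]
    ring
  rcases f01 hF (bb y1 c) with hg | hg <;> rcases f01 hF (bb y2 c) with hg' | hg'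
  · rw [hg, hg', zero_smul, zero_smul, add_zero, add_zero] at key
    exact hc key
  · rw [hg, hg', zero_smul, one_smul, zero_add] at key
    exact hcb (geo1_eq_of_add hF key)
  · rw [hg, hg', zero_smul, one_smul, add_zero] at key
    exact hca (geo1_eq_of_add hF key)
  · rw [hg, hg', one_smul, one_smul] at key
    exact hcab (geo1_eq_of_add hF key)

theorem exists_vals3 (hF : Fintype.card F = 2) {a b c : VV m F} (ha : a ≠ 0) (hb : b ≠ 0) (hab : a ≠ b)
    (hc : c ≠ 0) (hca : c ≠ a) (hcb : c ≠ b) (hcab : c ≠ a + b) (α β γ : F) :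
    ∃ x, bb x a = α ∧ bb x b = β ∧ bb x c = γ := by
  obtain ⟨x0, hx0a, hx0b⟩ := exists_vals2 hF ha hb hab α β
  obtain ⟨y, hya, hyb, hyc⟩ := geo1_step3 hF ha hb hab hc hca hcb hcab
  refine ⟨x0 + (γ + bb x0 c) • y, ?_, ?_, ?_⟩
  · rw [bb_add_left, bb_smul_left, hya, mul_zero, add_zero, hx0a]
  · rw [bb_add_left, bb_smul_left, hyb, mul_zero, add_zero, hx0b]
  · rw [bb_add_left, bb_smul_left, hyc, mul_one, add_comm γ, ← add_assoc, fadd hF, zero_add]

end Cfsg.Agent.Lib.Helper5.SpTwo
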