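import Cfsg.Agent.Lib.Helper5.SpTwo.C0C
import Cfsg.Agent.Lib.Helper5.SpTwo.C1A
import Cfsg.Agent.Lib.Helper5.SpTwo.C1B
import Cfsg.Agent.Lib.Helper5.SpTwo.C1C

set_option autoImplicit false

namespace Cfsg.Agent.Lib.Helper5.SpTwo

variable {F : Type*} [Field F] [Fintype F] {m : ℕ} {Ω : Type*} [Finite Ω]

theorem tight_zero (hF : Fintype.card F = 2) (ρ : GG m F →* Equiv.Perm Ω) (ω : Ω) : Tight ρ ω (0 : VV m F) := by
  intro w _
  right
  rw [ep_one hF, add_zero, t_sq hF, map_one, Equiv.Perm.one_apply]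

theorem moved_all (hF : Fintype.card F = 2) (ρ : GG m F →* Equiv.Perm Ω) {v₀ : VV m F} {ω₀ : Ω}
    (h : ρ (t v₀) ω₀ ≠ ω₀) {v : VV m F} (hv : v ≠ 0) : ∃ ω, ρ (t v) ω ≠ ω := by
  have hv0 : v₀ ≠ 0 := by
    rintro rfl
    apply h
    rw [t_zero, map_one, Equiv.Perm.one_apply]
  obtain ⟨g, hg⟩ := exists_act_eq hF hv0 hv
  refine ⟨ρ g ω₀, ?_⟩
  rw [← hg, ← conj_t]
  intro h2
  apply h
  have : ρ (g * t v₀ * g⁻¹) (ρ g ω₀) = ρ g (ρ (t v₀) ω₀) := by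
    rw [← Equiv.Perm.mul_apply, ← Equiv.Perm.mul_apply, ← map_mul, ← map_mul]
    congr 2
    group
  rw [this] at h2
  exact (ρ g).injective h2

theorem card_split (ρ : GG m F →* Equiv.Perm Ω) (v : VV m F) :
    Nat.card Ω = Nat.card {ω // ρ (t v) ω = ω} + Nat.card {ω // ρ (t v) ω ≠ ω} := by
  classical
  haveI := Fintype.ofFinite Ω
  simp only [Nat.card_eq_fintype_card]
  exact (Fintype.card_subtype_compl (fun ω => ρ (t v) ω = ω) ▸
    (Nat.add_sub_of_le (Fintype.card_subtype_le _)).symm)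

theorem num_bound {m : ℕ} (hm : 1 ≤ m) : 2 ^ (m - 1) * (2 ^ m - 1) + 2 ^ (m - 1) = 2 ^ (2 * m - 1) ∧
    2 ^ (2 * m - 2) + 2 ^ (2 * m - 2) = 2 ^ (2 * m - 1) := by
  obtain ⟨k, rfl⟩ : ∃ k, m = k + 1 := ⟨m - 1, by omega⟩
  have e1 : 2 * (k + 1) - 1 = k + (k + 1) := by omega
  have e2 : 2 * (k + 1) - 2 = 2 * k := by omega
  have e3 : k + 1 - 1 = k := by omega
  rw [e1, e2, e3]
  constructor
  · have : 1 ≤ 2 ^ (k + 1) := Nat.one_le_two_pow
    rw [pow_add 2 k (k + 1)]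
    calc 2 ^ k * (2 ^ (k + 1) - 1) + 2 ^ k = 2 ^ k * (2 ^ (k + 1) - 1 + 1) := by ring
      _ = 2 ^ k * 2 ^ (k + 1) := by rw [Nat.sub_add_cancel this]
  · rw [show k + (k + 1) = 2 * k + 1 by ring, pow_succ]
    ring

/-- the lower bound -/
theorem low (hF : Fintype.card F = 2) (hm : 3 ≤ m) (ρ : GG m F →* Equiv.Perm Ω)
    (hρ : ∃ (v : VV m F) (ω : Ω), ρ (t v) ω ≠ ω) : 2 ^ (m - 1) * (2 ^ m - 1) ≤ Nat.card Ω := by
  obtain ⟨v₀, ω₀, h0⟩ := hρ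
  obtain ⟨n1, n2⟩ := num_bound (m := m) (by omega)
  by_cases hT : ∀ ω v, Tight ρ ω v
  · exact (tight_false hF hm ρ hT h0).elim
  · push Not at hT
    obtain ⟨ω, v, hn⟩ := hT
    have hv : v ≠ 0 := by
      rintro rfl
      exact hn (tight_zero hF ρ ω)
    have hs := card_split ρ v
    have key : ∀ A B C D f s : ℕ, A + B = C → D + D = C → (C ≤ s ∨ (D ≤ f ∧ D ≤ s + B)) → A ≤ f + s := by
      intro A B C D f s h1 h2 h3
      omega
    rw [hs]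
    refine key _ _ _ _ _ _ n1 n2 ?_
    by_cases h : ρ (t v) ω = ω
    · have h1 := nontight_fixed hF (by omega) ρ hv h hn
      obtain ⟨ω', h'⟩ := moved_all hF ρ h0 hv
      by_cases hT' : Tight ρ ω' v
      · exact Or.inr ⟨h1, tight_moved hF (by omega) ρ hv h' hT'⟩
      · exact Or.inl (nontight_moved hF ρ hv h' hT')
    · exact Or.inl (nontight_moved hF ρ hv h hn)

end Cfsg.Agent.Lib.Helper5.SpTwo
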