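import Cfsg.Agent.Lib.Helper5.SpTwo.Defs

set_option autoImplicit false

namespace Cfsg.Agent.Lib.Helper5.SpTwo

variable {F : Type*} [Field F] [Fintype F] {m : ℕ} {Ω : Type*}

omit [Fintype F] in
/-- RUNG QF: basic properties of `qf` (Defs only). -/
theorem qf_spec (ρ : GG m F →* Equiv.Perm Ω) {v : VV m F} {ω : Ω}
    (hT : Tight ρ ω v) {w : VV m F} (hw : bb w v = 0) : ρ (ep v w (qf ρ ω v w)) ω = ω := by
  unfold qf
  split_ifs with h
  · exact h
  · exact (hT w hw).resolve_left h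

/-- if both ep v w 0 and ep v w 1 = ep v w 0 * t v fix ω then t v fixes ω. -/
theorem qf_unique (hF : Fintype.card F = 2) (ρ : GG m F →* Equiv.Perm Ω) {v : VV m F} {ω : Ω}
    (h : ρ (t v) ω ≠ ω) {w : VV m F} (hw : bb w v = 0) {c : F} (hc : ρ (ep v w c) ω = ω) :
    c = qf ρ ω v w := by
  unfold qf
  split_ifs with h0
  · rcases f01 hF c with rfl | rfl
    · rfl
    · exfalso
      apply h
      have e : t v = ep v w 0 * ep v w 1 := by
        rw [ep_mul hF hw hw, bb_self, vadd hF, zero_add, add_zero, ep_zero_one hF]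
      rw [e, map_mul, Equiv.Perm.mul_apply, hc, h0]
  · rcases f01 hF c with rfl | rfl
    · exact absurd hc h0
    · rfl

/-- `ep_mul` + `qf_spec` + `qf_unique` (+ `bb_comm`). -/
theorem qf_add (hF : Fintype.card F = 2) (ρ : GG m F →* Equiv.Perm Ω) {v : VV m F} {ω : Ω}
    (h : ρ (t v) ω ≠ ω) (hT : Tight ρ ω v) {w w' : VV m F} (hw : bb w v = 0) (hw' : bb w' v = 0) :
    qf ρ ω v (w + w') = qf ρ ω v w + qf ρ ω v w' + bb w w' := by
  symm
  apply qf_unique hF ρ h (by rw [bb_add_left, hw, hw', add_zero])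
  rw [bb_comm hF w w', ← ep_mul hF hw hw', map_mul, Equiv.Perm.mul_apply, qf_spec ρ hT hw', qf_spec ρ hT hw]

theorem qf_zero (hF : Fintype.card F = 2) (ρ : GG m F →* Equiv.Perm Ω) (ω : Ω) (v : VV m F) :
    qf ρ ω v 0 = 0 := by
  unfold qf
  rw [if_pos]
  rw [ep_zero_zero hF, map_one, Equiv.Perm.one_apply]

theorem qf_v (hF : Fintype.card F = 2) (ρ : GG m F →* Equiv.Perm Ω) (ω : Ω) (v : VV m F) :
    qf ρ ω v v = 0 := by
  unfold qf
  rw [if_pos]
  have := ep_add_v hF (bb_zero_left v) (0 : F)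
  rw [zero_add] at this
  rw [this, ep_zero_zero hF, map_one, Equiv.Perm.one_apply]

end Cfsg.Agent.Lib.Helper5.SpTwo
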