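import Cfsg.Agent.Lib.Helper5.SpTwo.LOW
import Cfsg.Agent.Lib.Helper5.SpTwo.EX1
import Cfsg.Agent.Lib.Helper5.SpTwo.EX2
import Cfsg.Agent.S0765
import Cfsg.Prelude.Def_Classical

set_option autoImplicit false

namespace Cfsg.Agent.Lib.Helper5.SpTwo

variable {F : Type*} [Field F] [Fintype F] {m : ℕ}

theorem center_eq_bot (hF : Fintype.card F = 2) : Subgroup.center (GG m F) = ⊥ := by
  rw [eq_bot_iff]
  intro z hz
  rw [Subgroup.mem_bot]
  apply ext_act
  intro a
  rw [act_one]
  apply t_inj hF
  rw [← conj_t]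
  have := Subgroup.mem_center_iff.1 hz (t a)
  rw [← this, mul_assoc, mul_inv_cancel, mul_one]

theorem low_sub (hF : Fintype.card F = 2) (hm : 3 ≤ m) (H : Subgroup (GG m F)) (hH : H ≠ ⊤) :
    2 ^ (m - 1) * (2 ^ m - 1) ≤ H.index := by
  have : Finite (GG m F) := Finite.of_injective (fun g : GG m F => g.1) Subtype.val_injective
  have := low hF hm (MulAction.toPermHom (GG m F) (GG m F ⧸ H)) (by
    by_contra hc
    push Not at hc
    apply hH
    rw [eq_top_iff, ← Cfsg.Agent.S0765.result, Subgroup.closure_le]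
    rintro A ⟨w, c, hA⟩
    have hA' : A = t w ∨ A = 1 := by
      rcases f01 hF c with rfl | rfl
      · right
        apply Subtype.ext
        rw [hA]
        simp [Cfsg.sympTransvection]
      · left
        exact Subtype.ext hA
    rcases hA' with rfl | rfl
    · have h1 := hc w ((1 : GG m F) : GG m F ⧸ H)
      have h2 : ((t w * 1 : GG m F) : GG m F ⧸ H) = ((1 : GG m F) : GG m F ⧸ H) := h1
      rw [mul_one, QuotientGroup.eq, mul_one] at h2
      exact H.inv_mem_iff.1 h2
    · exact H.one_mem)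
  exact this

theorem main (hF : Fintype.card F = 2) (hm : 3 ≤ m) :
    (∀ H : Subgroup (Cfsg.PSp m F), H ≠ ⊤ → 2 ^ (m - 1) * (2 ^ m - 1) ≤ H.index) ∧
    (∃ H : Subgroup (Cfsg.PSp m F), H.index = 2 ^ (m - 1) * (2 ^ m - 1)) := by
  have hsurj : Function.Surjective (QuotientGroup.mk' (Subgroup.center (GG m F))) :=
    QuotientGroup.mk'_surjective _
  constructor
  · intro H hH
    set K : Subgroup (GG m F) := H.comap (QuotientGroup.mk' (Subgroup.center (GG m F))) with hK
    have hidx : K.index = H.index := Subgroup.index_comap_of_surjective H hsurj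
    have hKtop : K ≠ ⊤ := by
      intro h
      apply hH
      rw [← Subgroup.index_eq_one, ← hidx, h, Subgroup.index_top]
    rw [← hidx]
    exact low_sub hF hm K hKtop
  · obtain ⟨Q, hQ, hc⟩ := exists_minus (m := m) hF (by omega)
    refine ⟨(stabQ Q).map (QuotientGroup.mk' (Subgroup.center (GG m F))), ?_⟩
    have h1 : stabQ Q ⊔ Subgroup.center (GG m F) = stabQ Q := by
      rw [center_eq_bot hF, sup_bot_eq]
    rw [Subgroup.index_map, QuotientGroup.ker_mk', h1,
      MonoidHom.range_eq_top.2 hsurj, Subgroup.index_top, mul_one,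
      index_stabQ hF Q hQ, hc]

end Cfsg.Agent.Lib.Helper5.SpTwo
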